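/-
The checks of the letters of the subgroup of Suzuki's group on the lines of the long root elements.
-/
import Cfsg.Agent.Lib.Iso.G24Data
import Cfsg.Agent.Lib.Mat.F4CF
import Cfsg.Agent.Lib.TC.Uniq
import Cfsg.Agent.Lib.TC.Data.Suz1782.Main

set_option autoImplicit false

namespace Cfsg.Agent.Lib.Iso.G24

open Cfsg.Agent.Lib.TC Cfsg.Agent.Lib.TC.Fast Cfsg.Agent.Lib.Mat Cfsg.Agent.Lib.Iso.G24Data

abbrev K := Cfsg.Agent.Lib.Classical.FF4.F4

noncomputable def F : CF K := cfF4

noncomputable def Lp (g : ℕ) : ℕ := LpL.getD g 0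

/-- The representative of a line. -/
noncomputable def rp (n : ℕ) : ℕ := Nat.land (Nat.shiftRight rpP (Nat.mul 28 n)) 268435455

/-- The table of the letters on the lines. -/
noncomputable def tO (n g : ℕ) : ℕ := Nat.land (Nat.shiftRight tOP (Nat.add (Nat.mul 66 n) (Nat.mul 11 g))) 2047

/-- A scalar multiple. -/
noncomputable def scal (c p : ℕ) : ℕ := pk F.q (fun i => F.mul c (dig F.q i p)) 14 0

/-- Is `w` a multiple of `r`? -/
noncomputable def isMul (w r : ℕ) : Bool :=
  bf (Nat.beq w r) true (bf (Nat.beq w (scal 2 r)) true (Nat.beq w (scal 3 r)))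

theorem chkL_ok : allF (fun n => allF (fun g =>
    bf (Nat.blt (tO n g) 1365) (fb (mv F 14 (Lp g) (rp n)) (fun w => isMul w (rp (tO n g)))) false) 0 6) 0 1365 = true := by
  decide +kernel

noncomputable abbrev C := Cfsg.Agent.Lib.TC.Data.Suz1782.checked

theorem chkT_ok : allF (fun n => allF (fun g => Nat.beq (C.T (Nat.add n 1) g) (Nat.add (tO n g) 1)) 0 6) 0 1365 = true := by
  decide +kernel

/-- All the multiples of the representatives. -/
noncomputable def gM (k : ℕ) : ℕ := Nat.mod (scal (Nat.add (Nat.mod k 3) 1) (rp (Nat.div k 3))) 718361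

theorem chkU_ok : uniqF gM 4095 0 = true := by decide +kernel

end Cfsg.Agent.Lib.Iso.G24
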