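/-
The root elements of the Chevalley group of type G₂ over the field with four elements as numbers, and the letters of the
subgroup of Suzuki's group as words in them and conversely.
-/
import Cfsg.Agent.Lib.Iso.G24Chk
import Cfsg.Agent.Lib.Iso.G24Data2
import Cfsg.Prelude.Def_ChevG2

set_option autoImplicit false

namespace Cfsg.Agent.Lib.Iso.G24

open Cfsg.Agent.Lib.TC Cfsg.Agent.Lib.TC.Fast Cfsg.Agent.Lib.Mat Cfsg.Agent.Lib.Iso.G24Data
open Cfsg.Lie
open Matrix

abbrev Idx := chevG2.Idx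

abbrev GG := chevG2.group K

abbrev M14 := Matrix (Fin 14) (Fin 14) K

abbrev V := Fin 14 → K

/-- The numbering of the index set. -/
def eo : Idx ≃ Fin 14 := (finSumFinEquiv : Fin 2 ⊕ Fin 12 ≃ Fin (2 + 12))

/-- The matrices with numbered indices. -/
noncomputable abbrev re : Matrix Idx Idx K ≃ₐ[K] M14 := Matrix.reindexAlgEquiv K K eo

/-- A matrix as a function. -/
def fnM (A : M14) : Fin 14 → Fin 14 → K := A

theorem eq_of_fnM {A B : M14} (h : ∀ i j, fnM A i j = fnM B i j) : A = B := Matrix.ext h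

noncomputable def Xp (i : ℕ) : ℕ := XpL.getD i 0

noncomputable def rF (i : ℕ) : Fin 12 := ⟨rU.getD i 0 % 12, Nat.mod_lt _ (by norm_num)⟩

noncomputable def tF (i : ℕ) : K := F.c (tU.getD i 0)

noncomputable abbrev xM (i : ℕ) : Matrix Idx Idx K := chevG2.xMat K (rF i) (tF i)

theorem hX : ∀ i, i < 14 → ∀ r c, fnM (re (xM i)) r c = fnM (toM F 14 (Xp i)) r c := by decide +kernel

theorem hXX : ∀ i, i < 14 → mm F 14 (Xp i) (Xp i) = oneP F 14 := by decide +kernel

theorem hwords : ∀ g, g < 6 → evalP F 14 Xp (LW.getD g []) (oneP F 14) = Lp g ∧ (∀ i ∈ LW.getD g [], i < 14) := by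
  decide +kernel

/-- The matrix of a root element. -/
noncomputable def XA (r t : ℕ) : ℕ := XAL.getD (Nat.add (Nat.mul 4 r) t) 0

/-- The word of a root element. -/
noncomputable def WA (r t : ℕ) : List ℕ := WWL.getD (Nat.add (Nat.mul 4 r) t) []

theorem hXA : ∀ r : Fin 12, ∀ t, t < 4 → ∀ i j,
    fnM (re (chevG2.xMat K r (F.c t))) i j = fnM (toM F 14 (XA r t)) i j := by decide +kernel

theorem hXAsq : ∀ r, r < 12 → ∀ t, t < 4 → mm F 14 (XA r t) (XA r t) = oneP F 14 := by decide +kernel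

theorem hWA : ∀ r, r < 12 → ∀ t, t < 4 → evalP F 14 Lp (WA r t) (oneP F 14) = XA r t ∧ ∀ g ∈ WA r t, g < 6 := by
  decide +kernel

theorem sq_one : ∀ d : K, d * d = 1 → d = 1 := by decide +kernel

theorem pow14 : ∀ c : K, c ^ 14 = 1 → c = 1 := by decide +kernel

/-- The representative vector of a line. -/
noncomputable def vv (n : ℕ) : V := toV F 14 (rp n)

noncomputable def Bn (j : ℕ) : ℕ := BL.getD j 0

theorem hPcol : ∀ j : Fin 14, ∀ i : Fin 14, toM F 14 Pp i j = vv (Bn j) i := by decide +kernel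

theorem hBlt : ∀ j, j < 14 → Bn j < 1365 := by decide +kernel

theorem hQPm : mm F 14 Qp Pp = oneP F 14 := by decide +kernel

theorem hPa : mv F 14 Pp aN = rp uN := by decide +kernel

theorem ha0 : ∀ i : Fin 14, toV F 14 aN i ≠ 0 := by decide +kernel

theorem huN : uN < 1365 := by decide +kernel

end Cfsg.Agent.Lib.Iso.G24
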