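/-
The subgroup of Suzuki's group generated by a, …, f is the Chevalley group of type G₂ over the field with four elements:
both act on the 1365 points of a suborbit, which are the lines of the long root elements in the Lie algebra.
-/
import Cfsg.Agent.Lib.Iso.G24Mat
import Cfsg.Agent.Lib.Iso.G24Lev
import Cfsg.Agent.Lib.TC.InterOn
import Cfsg.Agent.Lib.TC.Data.SuzMain

set_option autoImplicit false

namespace Cfsg.Agent.Lib.Iso.G24

open Cfsg.Agent.Lib.TC Cfsg.Agent.Lib.TC.Fast Cfsg.Agent.Lib.Mat Cfsg.Agent.Lib.Iso.G24Data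
open Cfsg.Lie
open Matrix

theorem re_xM {i : ℕ} (hi : i < 14) : re (xM i) = toM F 14 (Xp i) := eq_of_fnM (hX i hi)

theorem xM_sq {i : ℕ} (hi : i < 14) : xM i * xM i = 1 := by
  apply re.injective
  rw [map_mul, map_one, re_xM hi, ← toM_mm, hXX i hi, toM_oneP]

/-- The root elements as invertible matrices. -/
noncomputable def xG (i : ℕ) (hi : i < 14) : GL Idx K := ⟨xM i, xM i, xM_sq hi, xM_sq hi⟩

/-- The root elements in the group. -/
noncomputable def gU (i : ℕ) : GG :=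
  if hi : i < 14 then ⟨xG i hi, Subgroup.subset_closure ⟨rF i, tF i, rfl⟩⟩ else 1

noncomputable def ι : GG →* M14 where
  toFun g := re (g.1 : GL Idx K).1
  map_one' := map_one re
  map_mul' a b := map_mul re (a.1 : GL Idx K).1 (b.1 : GL Idx K).1

theorem ι_inj {a b : GG} (h : ι a = ι b) : a = b := Subtype.ext (Units.ext (re.injective h))

theorem ι_gU {i : ℕ} (hi : i < 14) : ι (gU i) = toM F 14 (Xp i) := by
  show re ((gU i).1 : GL Idx K).1 = _
  rw [gU, dif_pos hi]
  exact re_xM hi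

theorem coe_eval (w : List ℕ) (hw : ∀ g ∈ w, g < 14) :
    ι (evalWord gU w) = toM F 14 (evalP F 14 Xp w (oneP F 14)) := by
  rw [toM_evalP, toM_oneP, one_mul]
  induction w with
  | nil => exact map_one ι
  | cons g w ih =>
    rw [evalWord_cons, map_mul, List.map_cons, List.prod_cons, ih (fun x hx => hw x (by simp [hx])), ι_gU (hw g (by simp))]

/-- The letters in the group. -/
noncomputable def ξ (g : ℕ) : GG := evalWord gU (LW.getD g [])

theorem ι_ξ {g : ℕ} (hg : g < 6) : ι (ξ g) = toM F 14 (Lp g) := by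
  obtain ⟨h1, h2⟩ := hwords g hg
  rw [ξ, coe_eval _ h2, h1]

theorem coe_evalξ (w : List ℕ) (hw : ∀ g ∈ w, g < 6) :
    ι (evalWord ξ w) = toM F 14 (evalP F 14 Lp w (oneP F 14)) := by
  rw [toM_evalP, toM_oneP, one_mul]
  induction w with
  | nil => exact map_one ι
  | cons g w ih =>
    rw [evalWord_cons, map_mul, List.map_cons, List.prod_cons, ih (fun x hx => hw x (by simp [hx])), ι_ξ (hw g (by simp))]

noncomputable abbrev α := actPerm (Γ := GG) ι

theorem α_ξ {g : ℕ} (hg : g < 6) (v : ℕ) : α (ξ g) (toV F 14 v) = toV F 14 (mv F 14 (Lp g) v) := by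
  rw [toV_mv, actPerm_apply, ι_ξ hg]

theorem α_smul (g : GG) (c : K) (u : V) : α g (c • u) = c • α g u := by
  rw [actPerm_apply, actPerm_apply, Matrix.mulVec_smul]

/-! ### All root elements -/

theorem re_xMat (r : Fin 12) {t : ℕ} (ht : t < 4) : re (chevG2.xMat K r (F.c t)) = toM F 14 (XA r t) :=
  eq_of_fnM (hXA r t ht)

theorem code4 (t : K) : F.code t < 4 ∧ F.c (F.code t) = t := F.hcode t

theorem det_xMat (r : Fin 12) (t : K) : (chevG2.xMat K r t).det = 1 := by
  obtain ⟨h1, h2⟩ := code4 t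
  rw [← h2]
  have h3 : chevG2.xMat K r (F.c (F.code t)) * chevG2.xMat K r (F.c (F.code t)) = 1 := by
    apply re.injective
    rw [map_mul, map_one, re_xMat r h1, ← toM_mm, hXAsq r r.2 _ h1, toM_oneP]
  apply sq_one
  rw [← Matrix.det_mul, h3, Matrix.det_one]

theorem det_GG (g : GG) : ((g.1 : GL Idx K) : Matrix Idx Idx K).det = 1 := by
  have h : chevG2.group K ≤ (Matrix.GeneralLinearGroup.det (n := Idx) (R := K)).ker := by
    refine (Subgroup.closure_le _).2 ?_
    rintro x ⟨r, t, hx⟩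
    rw [SetLike.mem_coe, MonoidHom.mem_ker]
    apply Units.ext
    rw [Matrix.GeneralLinearGroup.val_det_apply, hx, Units.val_one]
    exact det_xMat r t
  have h1 := MonoidHom.mem_ker.1 (h g.2)
  have h2 := congrArg Units.val h1
  rwa [Matrix.GeneralLinearGroup.val_det_apply, Units.val_one] at h2

theorem det_ι (g : GG) : (ι g).det = 1 := by
  show (re ((g.1 : GL Idx K) : Matrix Idx Idx K)).det = 1
  rw [Matrix.det_reindexAlgEquiv, det_GG]

theorem root_mem (L : Subgroup GG) (hw : ∀ w : List ℕ, (∀ g ∈ w, g < 6) → evalWord ξ w ∈ L)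
    (x : GL Idx K) (hx : x ∈ chevG2.group K) (r : Fin 12) (t : K) (h : (x : Matrix Idx Idx K) = chevG2.xMat K r t) :
    (⟨x, hx⟩ : GG) ∈ L := by
  obtain ⟨h1, h2⟩ := code4 t
  obtain ⟨h3, h4⟩ := hWA r r.2 (F.code t) h1
  have h5 : (⟨x, hx⟩ : GG) = evalWord ξ (WA r (F.code t)) := by
    apply ι_inj
    rw [coe_evalξ _ h4, h3]
    show re (x : Matrix Idx Idx K) = _
    rw [h, ← re_xMat r h1, h2]
  rw [h5]
  exact hw _ h4

/-- The letters generate the group. -/
theorem gen_top (L : Subgroup GG) (hL : ∀ j, j < 6 → ξ j ∈ L) : L = ⊤ := by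
  have hw : ∀ w : List ℕ, (∀ g ∈ w, g < 6) → evalWord ξ w ∈ L := by
    intro w hw
    induction w with
    | nil => exact L.one_mem
    | cons g w ih =>
      rw [evalWord_cons]
      exact L.mul_mem (hL g (hw g (by simp))) (ih (fun a ha => hw a (by simp [ha])))
  have h : chevG2.group K ≤ L.map (chevG2.group K).subtype := by
    refine (Subgroup.closure_le _).2 ?_
    rintro x ⟨r, t, h⟩
    exact ⟨⟨x, Subgroup.subset_closure ⟨r, t, h⟩⟩, root_mem L hw x _ r t h, rfl⟩
  rw [eq_top_iff]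
  rintro g -
  obtain ⟨y, hy, hg⟩ := h g.2
  have h1 : y = g := Subtype.ext hg
  rwa [← h1]

/-! ### Lines -/

/-- The line through a vector. -/
def line (u : V) : Set V := {w | ∃ c : K, c ≠ 0 ∧ w = c • u}

/-- The lines. -/
noncomputable def τ (n : ℕ) : Set V := line (vv n)

/-- The action on sets of vectors. -/
noncomputable def β : GG →* Equiv.Perm (Set V) where
  toFun g :=
    { toFun := fun S => α g '' S
      invFun := fun S => (α g).symm '' S
      left_inv := fun S => by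
        show (α g).symm '' (α g '' S) = S
        rw [Set.image_image]
        simp
      right_inv := fun S => by
        show (α g) '' ((α g).symm '' S) = S
        rw [Set.image_image]
        simp }
  map_one' := by
    apply Equiv.ext
    intro S
    show α 1 '' S = S
    simp
  map_mul' a b := by
    apply Equiv.ext
    intro S
    show α (a * b) '' S = α a '' (α b '' S)
    rw [Set.image_image, map_mul]
    rfl

theorem β_apply (g : GG) (S : Set V) : β g S = α g '' S := rfl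

theorem line_map (g : GG) {u w : V} {d : K} (hd : d ≠ 0) (h : α g u = d • w) : β g (line u) = line w := by
  rw [β_apply]
  ext y
  constructor
  · rintro ⟨x, ⟨c, hc, rfl⟩, rfl⟩
    exact ⟨c * d, mul_ne_zero hc hd, by rw [α_smul, h, smul_smul]⟩
  · rintro ⟨c, hc, rfl⟩
    refine ⟨(c * d⁻¹) • u, ⟨c * d⁻¹, mul_ne_zero hc (inv_ne_zero hd), rfl⟩, ?_⟩
    rw [α_smul, h, smul_smul, mul_assoc, inv_mul_cancel₀ hd, mul_one]

theorem bf_spec {c a : Bool} (h : bf c a false = true) : c = true ∧ a = true := by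
  cases c <;> simp_all [bf]

theorem hq0 : 0 < F.q := lt_trans Nat.zero_lt_one F.hq

theorem toV_scal (c p : ℕ) : toV F 14 (scal c p) = F.c c • toV F 14 p := by
  funext i
  show F.c (dig F.q i (pk F.q _ 14 0)) = F.c c * F.c (dig F.q i p)
  rw [dig_pk hq0 (fun _ => (F.hmul _ _).1) i.2, Nat.zero_add, (F.hmul _ _).2]

theorem c_ne {d : ℕ} (hd : d < 4) (h0 : d ≠ 0) : F.c d ≠ 0 := by
  intro h
  exact h0 (F.hinj d 0 hd (by show 0 < 4; norm_num) (h.trans F.h0.symm))

theorem spec_L {n g : ℕ} (hn : n < 1365) (hg : g < 6) : tO n g < 1365 ∧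
    ∃ d : ℕ, d < 4 ∧ d ≠ 0 ∧ toV F 14 (mv F 14 (Lp g) (rp n)) = F.c d • vv (tO n g) := by
  have h1 := allF_spec' _ _ chkL_ok n hn
  have h2 := allF_spec' _ _ h1 g hg
  obtain ⟨h3, h4⟩ := bf_spec h2
  refine ⟨nat_blt_true h3, ?_⟩
  rw [fb_eq] at h4
  generalize mv F 14 (Lp g) (rp n) = w at h4 ⊢
  generalize tO n g = m at h4 ⊢
  unfold isMul at h4
  unfold bf at h4
  cases h5 : Nat.beq w (rp m) with
  | true =>
    refine ⟨1, by norm_num, by norm_num, ?_⟩
    rw [Nat.eq_of_beq_eq_true h5, F.h1, one_smul]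
    rfl
  | false =>
    rw [h5] at h4
    cases h6 : Nat.beq w (scal 2 (rp m)) with
    | true =>
      refine ⟨2, by norm_num, by norm_num, ?_⟩
      rw [Nat.eq_of_beq_eq_true h6, toV_scal]
      rfl
    | false =>
      rw [h6] at h4
      refine ⟨3, by norm_num, by norm_num, ?_⟩
      rw [Nat.eq_of_beq_eq_true h4, toV_scal]
      rfl

theorem β_ξ {g n : ℕ} (hg : g < 6) (hn : n < 1365) : β (ξ g) (τ n) = τ (tO n g) := by
  obtain ⟨_, d, hd, hd0, h⟩ := spec_L hn hg
  refine line_map _ (c_ne hd hd0) ?_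
  rw [vv, α_ξ hg, h]

theorem hN14 : 268435456 = F.q ^ 14 := by
  show 268435456 = 4 ^ 14
  norm_num

theorem rp_lt (n : ℕ) : rp n < F.q ^ 14 := by
  rw [← hN14]
  have h : rp n ≤ 268435455 := Nat.and_le_right
  omega

theorem scal_lt (c p : ℕ) : scal c p < F.q ^ 14 :=
  pk_lt hq0 (fun _ => (F.hmul _ _).1) 14 0

theorem gM_eq (a b : ℕ) (hb : b < 3) : gM (3 * a + b) = Nat.mod (scal (b + 1) (rp a)) 718361 := by
  show Nat.mod (scal (Nat.add (Nat.mod (3 * a + b) 3) 1) (rp (Nat.div (3 * a + b) 3))) 718361 = _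
  have e1 : Nat.mod (3 * a + b) 3 = b := by
    show (3 * a + b) % 3 = b
    omega
  have e2 : Nat.div (3 * a + b) 3 = a := by
    show (3 * a + b) / 3 = a
    omega
  rw [e1, e2]

theorem τ_inj {n m : ℕ} (hn : n < 1365) (hm : m < 1365) (h : τ n = τ m) : n = m := by
  have h1 : vv n ∈ τ m := h ▸ (⟨1, one_ne_zero, (one_smul _ _).symm⟩ : vv n ∈ τ n)
  obtain ⟨c, hc, h2⟩ := h1
  obtain ⟨hc1, hc2⟩ := code4 c
  have hc0 : F.code c ≠ 0 := by
    intro h0
    rw [h0, F.h0] at hc2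
    exact hc hc2.symm
  have e1 : scal (F.code c) (rp m) = rp n :=
    toV_inj F (scal_lt _ _) (rp_lt _) (by rw [toV_scal, hc2]; exact h2.symm)
  have e2 : scal 1 (rp n) = rp n :=
    toV_inj F (scal_lt _ _) (rp_lt _) (by rw [toV_scal, F.h1, one_smul])
  have e3 : gM (3 * n + 0) = gM (3 * m + (F.code c - 1)) := by
    rw [gM_eq _ _ (by norm_num), gM_eq _ _ (by omega), Nat.sub_add_cancel (by omega), e1, Nat.zero_add, e2]
  have h3 := (uniqF_spec gM 4095 0 chkU_ok).2 _ _ (by omega) (by omega) e3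
  omega

/-- The lines as a set. -/
noncomputable def Y0 : Set (Set V) := τ '' {n | n < 1365}

theorem Y0_finite : Y0.Finite := (Set.finite_lt_nat 1365).image _

/-! ### Faithfulness -/

theorem scalar_of_lines {n : ℕ} (A P Q : Matrix (Fin n) (Fin n) K) (hQP : Q * P = 1) (a : Fin n → K) (ha : ∀ i, a i ≠ 0)
    (c : K) (hc : A *ᵥ (P *ᵥ a) = c • (P *ᵥ a))
    (hcols : ∀ j, ∃ d : K, A *ᵥ (fun i => P i j) = d • (fun i => P i j)) : A = c • 1 := by
  choose d hd using hcols
  have h1 : A * P = P * Matrix.diagonal d := by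
    apply Matrix.ext
    intro i j
    have h2 := congrFun (hd j) i
    rw [Matrix.mul_diagonal, Matrix.mul_apply]
    have h3 : (A *ᵥ (fun i => P i j)) i = ∑ k, A i k * P k j := rfl
    rw [← h3, h2]
    simp [mul_comm]
  have h2 : P *ᵥ (Matrix.diagonal d *ᵥ a) = P *ᵥ (c • a) := by
    rw [Matrix.mulVec_mulVec, ← h1, ← Matrix.mulVec_mulVec, hc, Matrix.mulVec_smul]
  have h4' : ∀ x, Q *ᵥ (P *ᵥ x) = x := fun x => by
    rw [Matrix.mulVec_mulVec, hQP, Matrix.one_mulVec]
  have h3 : Matrix.diagonal d *ᵥ a = c • a := by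
    rw [← h4' (Matrix.diagonal d *ᵥ a), h2, h4']
  have h4 : ∀ i, d i = c := by
    intro i
    have h5 := congrFun h3 i
    rw [Matrix.mulVec_diagonal] at h5
    exact mul_right_cancel₀ (ha i) h5
  have h5 : A * P = c • P := by
    rw [h1]
    apply Matrix.ext
    intro i j
    rw [Matrix.mul_diagonal, h4, Matrix.smul_apply, smul_eq_mul, mul_comm]
  have h6 : P * Q = 1 := mul_eq_one_comm.1 hQP
  calc A = A * (P * Q) := by rw [h6, mul_one]
    _ = (A * P) * Q := by rw [mul_assoc]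
    _ = c • 1 := by rw [h5, Matrix.smul_mul, h6]

/-- A vector of a line fixed by an element. -/
theorem eig_of_fix (k : GG) {n : ℕ} (h : β k (τ n) = τ n) : ∃ d : K, ι k *ᵥ vv n = d • vv n := by
  have h1 : α k (vv n) ∈ β k (τ n) := ⟨vv n, ⟨1, one_ne_zero, (one_smul _ _).symm⟩, rfl⟩
  rw [h] at h1
  obtain ⟨d, _, h2⟩ := h1
  exact ⟨d, h2⟩

theorem hβ : ∀ k, (∀ y ∈ Y0, β k y = y) → k = 1 := by
  intro k hk
  have hfix : ∀ n, n < 1365 → ∃ d : K, ι k *ᵥ vv n = d • vv n := fun n hn => eig_of_fix k (hk _ ⟨n, hn, rfl⟩)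
  obtain ⟨c, hc⟩ := hfix uN huN
  have hu : toM F 14 Pp *ᵥ toV F 14 aN = vv uN := by
    rw [← toV_mv, hPa]
    rfl
  have h1 : ι k = c • 1 := by
    refine scalar_of_lines _ (toM F 14 Pp) (toM F 14 Qp) ?_ (toV F 14 aN) ha0 c ?_ ?_
    · rw [← toM_mm, hQPm, toM_oneP]
    · rw [hu]
      exact hc
    · intro j
      obtain ⟨d, hd⟩ := hfix (Bn j) (hBlt j j.2)
      refine ⟨d, ?_⟩
      have h2 : (fun i => toM F 14 Pp i j) = vv (Bn j) := funext fun i => hPcol j i
      rw [h2]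
      exact hd
  have h2 := det_ι k
  rw [h1, Matrix.det_smul, Matrix.det_one, mul_one, Fintype.card_fin] at h2
  have h3 := pow14 c h2
  apply ι_inj
  rw [h1, h3, one_smul, map_one]

/-! ### The points -/

noncomputable abbrev S : Sys Cfsg.Spor.Suz.Gen := G.Suz.sys

noncomputable abbrev D := C.tableData

theorem hn1782 : D.n = 1782 := rfl

open _root_.Classical in
/-- The point of a line. -/
noncomputable def e (Y : Set V) : Fin D.n :=
  if h : ∃ n, n < 1365 ∧ Y = τ n then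
    ⟨h.choose + 1, by
      rw [hn1782]
      have := h.choose_spec.1
      omega⟩
  else ⟨0, by rw [hn1782]; norm_num⟩

theorem e_τ {n : ℕ} (hn : n < 1365) : (e (τ n)).val = n + 1 := by
  have h : ∃ m, m < 1365 ∧ τ n = τ m := ⟨n, hn, rfl⟩
  rw [e, dif_pos h]
  show h.choose + 1 = n + 1
  have hc := h.choose_spec
  generalize h.choose = m at hc ⊢
  have := τ_inj hn hc.1 hc.2
  omega

theorem e_inj : Set.InjOn e Y0 := by
  rintro _ ⟨a, ha, rfl⟩ _ ⟨b, hb, rfl⟩ h
  have h1 := congrArg Fin.val h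
  rw [e_τ ha, e_τ hb] at h1
  have h2 : a = b := by omega
  rw [h2]

/-- The letters of the subgroup. -/
noncomputable def x (j : ℕ) : PresentedGroup S.rels := S.v ([0, 1, 2, 3, 4, 5].getD j 0)

theorem hgetD : ∀ j, j < 6 → [0, 1, 2, 3, 4, 5].getD j 0 = j := by decide

theorem hY : ∀ j ∈ {j : ℕ | j < 6}, ∀ y ∈ Y0, β (ξ j) y ∈ Y0 := by
  rintro j hj _ ⟨n, hn, rfl⟩
  rw [β_ξ hj hn]
  exact ⟨_, (spec_L hn hj).1, rfl⟩

theorem hT_tO {n g : ℕ} (hn : n < 1365) (hg : g < 6) : C.T (n + 1) g = tO n g + 1 := by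
  have h1 := allF_spec' _ _ chkT_ok n hn
  have h2 := allF_spec' _ _ h1 g hg
  exact Nat.eq_of_beq_eq_true h2

theorem hf : ∀ j ∈ {j : ℕ | j < 6}, ∀ y ∈ Y0, D.φ (x j) (e y) = e (β (ξ j) y) := by
  rintro j hj _ ⟨n, hn, rfl⟩
  have hj' : j < 6 := hj
  rw [β_ξ hj' hn, x, hgetD j hj', D.φ_v (by show j < 7; omega)]
  apply Fin.ext
  refine (D.tbl.perm_val (g := j) (by show j < 7; omega) (e (τ n))).trans ?_
  show C.T (e (τ n)).val j = (e (τ (tO n j))).val
  rw [e_τ hn, e_τ (spec_L hn hj').1]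
  exact hT_tO hn hj'

/-- The subgroup. -/
noncomputable abbrev E : Subgroup (PresentedGroup S.rels) := Subgroup.closure (x '' {j : ℕ | j < 6})

theorem exists_ψ : ∃ ψ : E →* GG,
    (∀ j (hj : j ∈ {j : ℕ | j < 6}), ψ ⟨x j, Subgroup.subset_closure ⟨j, hj, rfl⟩⟩ = ξ j) ∧
      ∀ g : E, ∀ y ∈ Y0, β (ψ g) y ∈ Y0 ∧ D.φ g.1 (e y) = e (β (ψ g) y) :=
  exists_hom_of_intertwine_on D.φ β Y0 Y0_finite hβ e e_inj {j : ℕ | j < 6} x ξ hY hf

/-! ### The order -/

/-- An element of the group acting on the lines as a permutation. -/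
def Re (a : Equiv.Perm (Fin tb.n)) (k : GG) : Prop := ∀ n : Fin tb.n, β k (τ n.val) = τ (a n).val

theorem Re_letter {g : ℕ} (hg : g < 6) : Re (tb.perm g) (ξ g) := by
  intro n
  rw [tb.perm_val hg]
  exact β_ξ hg n.2

theorem Re_word (w : List ℕ) (hw : ∀ g ∈ w, g < 6) : Re (evalWord tb.perm w) (evalWord ξ w) := by
  induction w with
  | nil =>
    intro n
    show β 1 _ = τ ((1 : Equiv.Perm (Fin tb.n)) n).val
    rw [map_one]
    rfl
  | cons g w ih =>
    intro n
    rw [evalWord_cons, evalWord_cons, map_mul, Equiv.Perm.mul_apply, Equiv.Perm.mul_apply,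
      ih (fun x hx => hw x (by simp [hx])) n]
    exact Re_letter (hw g (by simp)) _

theorem exists_Re : ∀ a ∈ tb.gp SW, ∃ k : GG, Re a k := by
  intro a ha
  induction ha using Subgroup.closure_induction with
  | mem a h =>
    obtain ⟨w, hw, rfl⟩ := h
    exact ⟨_, Re_word w (hlet w hw)⟩
  | one =>
    refine ⟨1, fun n => ?_⟩
    rw [map_one]
    rfl
  | mul a b _ _ ha hb =>
    obtain ⟨k₁, h₁⟩ := ha
    obtain ⟨k₂, h₂⟩ := hb
    refine ⟨k₁ * k₂, fun n => ?_⟩
    rw [map_mul, Equiv.Perm.mul_apply, Equiv.Perm.mul_apply, h₂, h₁]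
  | inv a _ ha =>
    obtain ⟨k, h⟩ := ha
    refine ⟨k⁻¹, fun n => ?_⟩
    rw [map_inv, Equiv.Perm.inv_eq_iff_eq, h]
    simp

theorem card_le : Nat.card (tb.gp SW) ≤ Nat.card GG := by
  classical
  have hfin : Finite GG := inferInstance
  choose f hf using fun a : tb.gp SW => exists_Re a.1 a.2
  refine Nat.card_le_card_of_injective f ?_
  intro a b h
  apply Subtype.ext
  apply Equiv.ext
  intro n
  have h1 := hf a n
  rw [h, hf b n] at h1
  apply Fin.ext
  exact (τ_inj (b.1 n).2 (a.1 n).2 h1).symm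

theorem card_ge : 251596800 ≤ Nat.card GG := by
  have h := L0
  rw [List.drop_zero] at h
  exact h.trans card_le

/-! ### The groups -/

/-- The generators of the subgroup. -/
abbrev subs : Set (FreeGroup Cfsg.Spor.Suz.Gen) :=
  {Cfsg.Spor.Suz.a, Cfsg.Spor.Suz.b, Cfsg.Spor.Suz.c, Cfsg.Spor.Suz.d, Cfsg.Spor.Suz.e, Cfsg.Spor.Suz.f}

/-- The subgroup. -/
noncomputable abbrev H : Subgroup (PresentedGroup S.rels) := Sys.subOf S subs

theorem card_H : Nat.card H = 251596800 := by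
  have h1 := Subgroup.card_mul_index H
  have h2 : H.index = C.n := C.index_eq
  rw [h2, Cfsg.Agent.Lib.TC.Data.SuzMain.faith.2] at h1
  exact Nat.eq_of_mul_eq_mul_right C.hn h1

theorem hHE : H = E := Cfsg.Agent.Lib.TC.Data.SuzMain.hsubL

theorem main : ∃ (K' : Type) (_ : Field K') (_ : Fintype K'), Fintype.card K' = 4 ∧ Nonempty (H ≃* chevG2.group K') := by
  obtain ⟨ψ, hψ, _⟩ := exists_ψ
  have hfinE : Finite E := by
    have hc : Nat.card E = 251596800 := by
      rw [← hHE]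
      exact card_H
    exact Nat.finite_of_card_ne_zero (by rw [hc]; norm_num)
  have hr : ψ.range = ⊤ := gen_top ψ.range (fun j hj => ⟨_, hψ j hj⟩)
  have hsurj : Function.Surjective ψ := MonoidHom.range_eq_top.1 hr
  have hbij : Function.Bijective ψ := by
    apply hsurj.bijective_of_nat_card_le
    have hc : Nat.card E = 251596800 := by
      rw [← hHE]
      exact card_H
    rw [hc]
    exact card_ge
  refine ⟨K, inferInstance, inferInstance, Cfsg.Agent.Lib.Classical.FF4.card_F4, ?_⟩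
  exact ⟨(MulEquiv.subgroupCongr hHE).trans (MulEquiv.ofBijective ψ hbij)⟩

end Cfsg.Agent.Lib.Iso.G24
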