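/-
The subgroup of O'Nan's group generated by a, …, f is L₃(7):2.
-/
import Cfsg.Agent.Lib.Iso.L37Data
import Cfsg.Agent.Lib.Mat.ZModCF
import Cfsg.Agent.Lib.TC.Data.ONAbs
import Cfsg.Agent.Lib.TC.Data.ONMain

set_option autoImplicit false

namespace Cfsg.Agent.Lib.Iso.L37

open Cfsg.Agent.Lib.TC Cfsg.Agent.Lib.Mat Cfsg.Agent.Lib.Iso.L37Data
open scoped MatrixGroups

instance fact7 : Fact (Nat.Prime 7) := ⟨by norm_num⟩

abbrev K := ZMod 7
abbrev SL3 := Matrix.SpecialLinearGroup (Fin 3) K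
abbrev PSL3 := Matrix.ProjectiveSpecialLinearGroup (Fin 3) K

theorem tr_mul (a b : SL3) : (a * b).transpose = b.transpose * a.transpose := by
  apply Subtype.ext
  simp [Matrix.SpecialLinearGroup.coe_transpose, Matrix.transpose_mul]

theorem tr_tr (a : SL3) : a.transpose.transpose = a := by
  apply Subtype.ext
  simp [Matrix.SpecialLinearGroup.coe_transpose]

theorem tr_one : (1 : SL3).transpose = 1 := by
  apply Subtype.ext
  simp [Matrix.SpecialLinearGroup.coe_transpose]

theorem tr_inv (a : SL3) : (a⁻¹).transpose = (a.transpose)⁻¹ := by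
  apply eq_inv_of_mul_eq_one_left
  rw [← tr_mul, mul_inv_cancel, tr_one]

/-- The inverse transpose. -/
def sig : SL3 ≃* SL3 where
  toFun g := (g⁻¹).transpose
  invFun g := (g⁻¹).transpose
  left_inv g := by simp [tr_inv, tr_tr]
  right_inv g := by simp [tr_inv, tr_tr]
  map_mul' a b := by rw [mul_inv_rev, tr_mul]

theorem sig_apply (g : SL3) : sig g = (g⁻¹).transpose := rfl

theorem sig_sig (g : SL3) : sig (sig g) = g := by simp [sig_apply, tr_inv, tr_tr]

theorem map_center : (Subgroup.center SL3).map (sig : SL3 ≃* SL3).toMonoidHom = Subgroup.center SL3 :=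
  Subgroup.characteristic_iff_map_eq.1 inferInstance sig

/-- The automorphism of the quotient. -/
noncomputable def sigBar : PSL3 ≃* PSL3 := QuotientGroup.congr _ _ sig map_center

abbrev mkP : SL3 →* PSL3 := QuotientGroup.mk' _

theorem sigBar_mk (g : SL3) : sigBar (mkP g) = mkP (sig g) := QuotientGroup.congr_mk _ _ _ _ _

theorem sigBar_sq : (sigBar * sigBar : MulAut PSL3) = 1 := by
  ext x
  obtain ⟨g, rfl⟩ := QuotientGroup.mk'_surjective _ x
  show sigBar (sigBar (mkP g)) = mkP g
  rw [sigBar_mk, sigBar_mk, sig_sig]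

/-- The action of the group of order two. -/
noncomputable def phi : ℤˣ →* MulAut PSL3 where
  toFun u := if u = 1 then 1 else sigBar
  map_one' := by simp
  map_mul' a b := by
    rcases Int.units_eq_one_or a with rfl | rfl <;> rcases Int.units_eq_one_or b with rfl | rfl <;>
      simp [sigBar_sq]

abbrev T := PSL3 ⋊[phi] ℤˣ

theorem phi_neg (x : PSL3) : phi (-1) x = sigBar x := by
  show (if (-1 : ℤˣ) = 1 then (1 : MulAut PSL3) else sigBar) x = _
  rw [if_neg (by decide)]

/-- The even part. -/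
noncomputable def uHom : SL3 →* T := SemidirectProduct.inl.comp mkP

/-- A polarity. -/
noncomputable def pol (A : SL3) : T := ⟨mkP A, -1⟩

theorem pol_mul (A B : SL3) : pol A * pol B = uHom (A * sig B) := by
  refine SemidirectProduct.ext ?_ ?_
  · show mkP A * phi (-1) (mkP B) = mkP (A * sig B)
    rw [phi_neg, sigBar_mk, map_mul]
  · show (-1 : ℤˣ) * (-1) = 1
    decide

theorem u_mul_pol (X A : SL3) : uHom X * pol A = pol (X * A) := by
  refine SemidirectProduct.ext ?_ ?_
  · show mkP X * phi 1 (mkP A) = mkP (X * A)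
    simp
  · show (1 : ℤˣ) * (-1) = -1
    decide

noncomputable def F := cfZMod 7

noncomputable def Ms (g : ℕ) : ℕ := MsL.getD g 0

theorem hdet : ∀ g, g < 12 → (toM F 3 (Ms g)).det = 1 := by
  intro g hg
  rw [Matrix.det_fin_three]
  interval_cases g <;> decide +kernel

noncomputable def mkSL (g : ℕ) (h : g < 12) : SL3 := ⟨toM F 3 (Ms g), hdet g h⟩

noncomputable def a (g : ℕ) : SL3 := if h : g < 12 then mkSL g h else 1

theorem a_coe {g : ℕ} (hg : g < 12) : (a g).1 = toM F 3 (Ms g) := by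
  unfold a
  rw [dif_pos hg]
  rfl

theorem hprod : ∀ g, g < 6 → mm F 3 (Ms g) (Ms (g + 6)) = oneP F 3 := by decide +kernel

theorem hsym : ∀ g, g < 6 → ∀ i, i < 3 → ∀ j, j < 3 → ent F 3 (Ms (g + 6)) i j = ent F 3 (Ms (g + 6)) j i := by
  decide +kernel

theorem sig_a {g : ℕ} (hg : g < 6) : sig (a g) = a (g + 6) := by
  have h1 : a g * a (g + 6) = 1 := by
    apply Subtype.ext
    show (a g).1 * (a (g + 6)).1 = 1
    rw [a_coe (by omega), a_coe (by omega), ← toM_mm, hprod g hg, toM_oneP]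
  have h2 : (a g)⁻¹ = a (g + 6) := inv_eq_of_mul_eq_one_right h1
  rw [sig_apply, h2]
  apply Subtype.ext
  rw [Matrix.SpecialLinearGroup.coe_transpose, a_coe (by omega)]
  ext i j
  show F.c (ent F 3 (Ms (g + 6)) j i) = F.c (ent F 3 (Ms (g + 6)) i j)
  rw [hsym g hg j j.2 i i.2]

/-- The letters. -/
noncomputable def tl (g : ℕ) : T := pol (a g)

theorem tl_sq {g : ℕ} (hg : g < 6) : tl g * tl g = 1 := by
  rw [tl, pol_mul, sig_a hg]
  have h1 : a g * a (g + 6) = 1 := by
    rw [← sig_a hg, sig_apply]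
    apply Subtype.ext
    show (a g).1 * _ = 1
    rw [← sig_apply, sig_a hg, a_coe (by omega), a_coe (by omega), ← toM_mm, hprod g hg, toM_oneP]
  rw [h1, map_one]

/-- Double the letters at even places. -/
def dbl : List ℕ → List ℕ
  | [] => []
  | [x] => [x]
  | x :: y :: w => x :: (y + 6) :: dbl w

theorem eval_tl : ∀ w : List ℕ, Even w.length → (∀ g ∈ w, g < 6) →
    evalWord tl w = uHom (evalWord a (dbl w))
  | [], _, _ => by simp [dbl]
  | [x], h, _ => by simp at h
  | x :: y :: w, h, hl => by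
    have h1 : Even w.length := by
      simpa [Nat.even_add_one, List.length_cons] using h
    have h2 : y < 6 := hl y (by simp)
    rw [evalWord_cons, evalWord_cons, ← mul_assoc, tl, tl, pol_mul, sig_a h2,
      eval_tl w h1 (fun g hg => hl g (by simp [hg])), ← map_mul, dbl, evalWord_cons, evalWord_cons, mul_assoc]

theorem coe_eval (w : List ℕ) (hw : ∀ g ∈ w, g < 12) :
    (evalWord a w).1 = toM F 3 (evalP F 3 Ms w (oneP F 3)) := by
  rw [toM_evalP, toM_oneP, one_mul]
  induction w with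
  | nil => rfl
  | cons g w ih =>
    rw [evalWord_cons, List.map_cons, List.prod_cons, ← ih (fun x hx => hw x (by simp [hx])), ← a_coe (hw g (by simp))]
    rfl

/-- The check of a relator. -/
noncomputable def chkR (w : List ℕ) : Bool :=
  Nat.beq (Nat.mod w.length 2) 0 && w.all (fun g => Nat.blt g 6) && (dbl w).all (fun g => Nat.blt g 12) &&
    (scal.any fun c => Nat.beq (evalP F 3 Ms (dbl w) (oneP F 3)) c)

theorem chkR_all : R.all chkR = true := by decide +kernel

theorem scal_center : ∀ c ∈ scal, ∀ X : SL3, X.1 = toM F 3 c → X ∈ Subgroup.center SL3 := by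
  intro c hc X hX
  rw [Matrix.SpecialLinearGroup.mem_center_iff]
  simp only [scal, List.mem_cons, List.not_mem_nil, or_false] at hc
  rcases hc with rfl | rfl | rfl
  · refine ⟨1, by decide, ?_⟩
    rw [hX]
    ext i j
    fin_cases i <;> fin_cases j <;> decide +kernel
  · refine ⟨2, by decide, ?_⟩
    rw [hX]
    ext i j
    fin_cases i <;> fin_cases j <;> decide +kernel
  · refine ⟨4, by decide, ?_⟩
    rw [hX]
    ext i j
    fin_cases i <;> fin_cases j <;> decide +kernel

theorem eval_R {w : List ℕ} (hw : w ∈ R) : evalWord tl w = 1 := by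
  have h := List.all_eq_true.1 chkR_all w hw
  simp only [chkR, Bool.and_eq_true, List.all_eq_true, List.any_eq_true] at h
  obtain ⟨⟨⟨h1, h2⟩, h3⟩, c, hc, h4⟩ := h
  have h5 : Even w.length := by
    rw [Nat.even_iff]
    exact Nat.eq_of_beq_eq_true h1
  rw [eval_tl w h5 (fun g hg => nat_blt_true (h2 g hg))]
  have h6 : evalWord a (dbl w) ∈ Subgroup.center SL3 := by
    apply scal_center c hc
    rw [coe_eval _ (fun g hg => nat_blt_true (h3 g hg)), Nat.eq_of_beq_eq_true h4]
  have h7 : mkP (evalWord a (dbl w)) = 1 := (QuotientGroup.eq_one_iff _).2 h6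
  show SemidirectProduct.inl (mkP _) = 1
  rw [h7, map_one]

/-! ### The sift of `SL₃(7)` -/

noncomputable def ι : SL3 →* Matrix (Fin 3) (Fin 3) K where
  toFun g := g.1
  map_one' := rfl
  map_mul' _ _ := rfl

noncomputable abbrev α := actPerm (Γ := SL3) ι

noncomputable def Ms2 (k : ℕ) : ℕ := GPL.getD k 0

noncomputable def gens (k : ℕ) : SL3 := evalWord a (dbl (WL.getD k []))

theorem hwords : ∀ k, k < 6 → evalP F 3 Ms (dbl (WL.getD k [])) (oneP F 3) = Ms2 k ∧
    (∀ g ∈ dbl (WL.getD k []), g < 12) ∧ (∀ g ∈ WL.getD k [], g < 6) ∧ Even (WL.getD k []).length := by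
  decide +kernel

theorem ι_gens {k : ℕ} (hk : k < 6) : ι (gens k) = toM F 3 (Ms2 k) := by
  obtain ⟨h1, h2, _, _⟩ := hwords k hk
  show (evalWord a (dbl (WL.getD k []))).1 = _
  rw [coe_eval _ h2, h1]

theorem α_gens {k : ℕ} (hk : k < 6) (v : ℕ) : α (gens k) (toV F 3 v) = toV F 3 (mv F 3 (Ms2 k) v) := by
  rw [toV_mv, actPerm_apply, ι_gens hk]

theorem fix1 : ∀ k, k < 4 → mv F 3 (Ms2 k) 1 = 1 := by decide +kernel
theorem fix7 : ∀ k, k < 2 → mv F 3 (Ms2 k) 7 = 7 := by decide +kernel

noncomputable def C0 (p : ℕ) : Bool := Nat.blt 0 p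
noncomputable def C1 (p : ℕ) : Bool := Nat.ble 7 p
noncomputable def C2 (p : ℕ) : Bool := Nat.beq (Nat.div p 49) 1

theorem ck0 : lvCheck F 3 Ms2 6 C0 es0 1 343 = true := by decide +kernel
theorem ck1 : lvCheck F 3 Ms2 4 C1 es1 7 343 = true := by decide +kernel
theorem ck2 : lvCheck F 3 Ms2 2 C2 es2 49 343 = true := by decide +kernel

theorem cnt0 : cntF C0 343 = 342 := by decide +kernel
theorem cnt1 : cntF C1 343 = 336 := by decide +kernel
theorem cnt2 : cntF C2 343 = 49 := by decide +kernel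

theorem v_zero : toV F 3 0 = 0 := by decide +kernel
theorem v_e0 : toV F 3 1 = Pi.single 0 1 := by decide +kernel
theorem v_e1 : toV F 3 7 = Pi.single 1 1 := by decide +kernel
theorem v_e2 : toV F 3 49 = Pi.single 2 1 := by decide +kernel

theorem v_small : ∀ p, p < 7 → toV F 3 p = F.c p • toV F 3 1 := by
  intro p hp
  interval_cases p <;> decide +kernel

theorem hN : 343 = F.q ^ 3 := rfl

theorem col_of_fix (g : SL3) (j : Fin 3) (x : Fin 3 → K) (h : α g (Pi.single j 1) = x) (i : Fin 3) : g.1 i j = x i := by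
  rw [← h, actPerm_apply]
  show g.1 i j = (Matrix.mulVec (ι g) (Pi.single j 1)) i
  rw [Matrix.mulVec_single_one]
  rfl

theorem hC0 : ∀ g ∈ stabL α [], ∀ p, p < 343 → α g (toV F 3 1) = toV F 3 p → C0 p = true := by
  intro g _ p hp h
  by_contra h0
  have hp0 : p = 0 := by
    by_contra h1
    exact h0 (by
      show Nat.ble 1 p = true
      exact Nat.ble_eq_true_of_le (Nat.pos_of_ne_zero h1))
  subst hp0
  have h1 : α g (toV F 3 0) = toV F 3 0 := by
    rw [v_zero, actPerm_apply, Matrix.mulVec_zero]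
  have h2 : toV F 3 1 = toV F 3 0 := (α g).injective (h.trans h1.symm)
  have h3 := toV_inj F (n := 3) (a := 1) (b := 0) (by rw [← hN]; norm_num) (by rw [← hN]; norm_num) h2
  omega

theorem hC1 : ∀ g ∈ stabL α [toV F 3 1], ∀ p, p < 343 → α g (toV F 3 7) = toV F 3 p → C1 p = true := by
  intro g hg p _ h
  by_contra h0
  have hp : p < 7 := by
    by_contra h1
    exact h0 (by
      show Nat.ble 7 p = true
      exact Nat.ble_eq_true_of_le (by omega))
  have h1 : α g (toV F 3 1) = toV F 3 1 := (mem_stabL_cons α).1 hg |>.1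
  have h2 : α g (F.c p • toV F 3 1) = toV F 3 p := by
    rw [actPerm_apply, Matrix.mulVec_smul, ← actPerm_apply, h1, ← v_small p hp]
  have h3 : toV F 3 7 = F.c p • toV F 3 1 := (α g).injective (h.trans h2.symm)
  have h4 : toV F 3 7 1 = (F.c p • toV F 3 1) 1 := congrFun h3 1
  have h5 : toV F 3 7 1 = 1 := by decide +kernel
  have h6 : toV F 3 1 1 = 0 := by decide +kernel
  rw [Pi.smul_apply, h5, h6, smul_zero] at h4
  exact one_ne_zero h4

theorem hC2 : ∀ g ∈ stabL α [toV F 3 7, toV F 3 1], ∀ p, p < 343 → α g (toV F 3 49) = toV F 3 p → C2 p = true := by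
  intro g hg p hp h
  have h0 := (mem_stabL_cons α).1 hg
  have h1 : α g (toV F 3 7) = toV F 3 7 := h0.1
  have h2 : α g (toV F 3 1) = toV F 3 1 := ((mem_stabL_cons α).1 h0.2).1
  rw [v_e1] at h1
  rw [v_e0] at h2
  rw [v_e2] at h
  have hdetg : (g.1).det = 1 := g.2
  rw [Matrix.det_fin_three] at hdetg
  rw [col_of_fix g 0 _ h2 0, col_of_fix g 0 _ h2 1, col_of_fix g 0 _ h2 2, col_of_fix g 1 _ h1 0,
    col_of_fix g 1 _ h1 1, col_of_fix g 1 _ h1 2, col_of_fix g 2 _ h 2] at hdetg
  simp at hdetg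
  have h3 : toV F 3 p 2 = F.c (dig F.q 2 p) := rfl
  rw [h3] at hdetg
  have h4 : dig F.q 2 p = 1 := by
    apply F.hinj _ _ (dig_lt (lt_trans Nat.zero_lt_one F.hq) _ _) F.hq
    rw [hdetg, F.h1]
  have h5 : dig F.q 2 p = p / 49 % 7 := rfl
  rw [h5] at h4
  have h6 : p / 49 < 7 := by omega
  rw [Nat.mod_eq_of_lt h6] at h4
  show Nat.beq (p / 49) 1 = true
  rw [h4]
  rfl

theorem stab_all : stabL α [toV F 3 49, toV F 3 7, toV F 3 1] = ⊥ := by
  rw [eq_bot_iff]
  intro g hg
  have h0 := (mem_stabL_cons α).1 hg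
  have h1 := (mem_stabL_cons α).1 h0.2
  have h2 := (mem_stabL_cons α).1 h1.2
  have e2 : α g (Pi.single 2 1) = Pi.single 2 1 := by rw [← v_e2]; exact h0.1
  have e1 : α g (Pi.single 1 1) = Pi.single 1 1 := by rw [← v_e1]; exact h1.1
  have e0 : α g (Pi.single 0 1) = Pi.single 0 1 := by rw [← v_e0]; exact h2.1
  rw [Subgroup.mem_bot]
  apply Subtype.ext
  ext i j
  show g.1 i j = (1 : Matrix (Fin 3) (Fin 3) K) i j
  have e : ∀ j : Fin 3, α g (Pi.single j 1) = Pi.single j 1 := by
    intro j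
    fin_cases j
    · exact e0
    · exact e1
    · exact e2
  rw [Matrix.one_apply, col_of_fix g j _ (e j) i, Pi.single_apply]

/-- The chain: a subgroup containing the generators is everything, and the order of the group. -/
theorem sift (J : Subgroup SL3) (hJ : ∀ k, k < 6 → gens k ∈ J) : J = ⊤ ∧ Nat.card SL3 = 342 * (336 * (49 * 1)) := by
  have fix1' : ∀ k, k < 4 → α (gens k) (toV F 3 1) = toV F 3 1 := fun k hk => by
    rw [α_gens (by omega), fix1 k hk]
  have fix7' : ∀ k, k < 2 → α (gens k) (toV F 3 7) = toV F 3 7 := fun k hk => by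
    rw [α_gens (by omega), fix7 k hk]
  have L2 := level F ι (J := J) (bs := [toV F 3 7, toV F 3 1]) (Ms := Ms2) (nG := 2) (gens := gens) (C := C2)
    (es := es2) (ib := 49) (N := 343) hN (by norm_num)
    (fun k hk => ⟨hJ k (by omega), (mem_stabL_cons α).2 ⟨fix7' k hk, (mem_stabL_cons α).2 ⟨fix1' k (by omega), by simp [mem_stabL]⟩⟩,
      ι_gens (by omega)⟩) ck2 hC2
  have L1 := level F ι (J := J) (bs := [toV F 3 1]) (Ms := Ms2) (nG := 4) (gens := gens) (C := C1)
    (es := es1) (ib := 7) (N := 343) hN (by norm_num)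
    (fun k hk => ⟨hJ k (by omega), (mem_stabL_cons α).2 ⟨fix1' k hk, by simp [mem_stabL]⟩, ι_gens (by omega)⟩) ck1 hC1
  have L0 := level F ι (J := J) (bs := []) (Ms := Ms2) (nG := 6) (gens := gens) (C := C0)
    (es := es0) (ib := 1) (N := 343) hN (by norm_num)
    (fun k hk => ⟨hJ k (by omega), by simp [mem_stabL], ι_gens (by omega)⟩) ck0 hC0
  have s3 : stabL α [toV F 3 49, toV F 3 7, toV F 3 1] ≤ J := by
    rw [stab_all]
    exact bot_le
  have s2 := sift_step α s3 L2.1
  have s1 := sift_step α s2 L1.1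
  have s0 := sift_step α s1 L0.1
  rw [stabL_nil, top_le_iff] at s0
  refine ⟨s0, ?_⟩
  have c3 : Nat.card (stabL α [toV F 3 49, toV F 3 7, toV F 3 1]) = 1 := by
    rw [stab_all]
    exact Subgroup.card_bot
  have c2 := L2.2
  rw [c3, cnt2] at c2
  have c1 := L1.2
  rw [c2, cnt1] at c1
  have c0 := L0.2
  rw [c1, cnt0, stabL_nil, Subgroup.card_top] at c0
  exact c0

/-! ### The homomorphism -/

noncomputable abbrev S : Sys Cfsg.Spor.ON.Gen := G.ON.sys

noncomputable abbrev S' : Sys Cfsg.Spor.ON.Gen := Data.ONAbs.S'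

abbrev A : List ℕ := Data.ONAbs.A

noncomputable def v' (g : ℕ) : T := if g < 6 then tl g else 1

theorem tl_inv {g : ℕ} (hg : g < 6) : tl g = (tl g)⁻¹ := eq_inv_of_mul_eq_one_left (tl_sq hg)

theorem v_lt {g : ℕ} (h : g < 6) : v' g = tl g := if_pos h

theorem v_ge {g : ℕ} (h : ¬ g < 6) : v' g = 1 := if_neg h

theorem hinv6 : ∀ g, g < 6 → S.inv g = g := by decide +kernel

theorem hinv8 : ∀ g, g < 8 → ¬ g < 6 → ¬ S.inv g < 6 := by decide +kernel

theorem hv (x : Cfsg.Spor.ON.Gen) : v' (S.inv (S.code x)) = (v' (S.code x))⁻¹ := by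
  by_cases hc : S.code x < 6
  · rw [hinv6 _ hc, v_lt hc]
    exact tl_inv hc
  · rw [v_ge hc, v_ge (hinv8 _ (S.hcode x) hc), inv_one]

/-- The values of the generators. -/
noncomputable def f (x : Cfsg.Spor.ON.Gen) : T := v' (S.code x)

theorem hR : ∀ w ∈ G.ON.relWords, (∀ g ∈ w, g < 6) → w ∈ R := by decide +kernel

theorem eval_v {w : List ℕ} (hw : ∀ g ∈ w, g < 6) : evalWord v' w = evalWord tl w := by
  induction w with
  | nil => rfl
  | cons g w ih =>
    rw [evalWord_cons, evalWord_cons, v_lt (hw g (by simp)), ih (fun a ha => hw a (by simp [ha]))]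

theorem hA6 : ∀ g, g ∈ A ↔ g < 6 := by
  intro g
  constructor
  · intro h
    revert g
    decide +kernel
  · intro h
    interval_cases g <;> decide

theorem hf : ∀ r ∈ S'.rels, FreeGroup.lift f r = 1 := by
  rintro r ((⟨hr, hl⟩ | ⟨x, hx, rfl⟩) | ⟨x, hx, rfl⟩)
  · have h1 : FreeGroup.lift f r = evalWord v' (encW S.code S.inv r) := lift_eq_evalWord S.code S.inv v' hv r
    have h2 : ∀ g ∈ encW S.code S.inv r, g < 6 := by
      intro g hg
      simp only [encW, List.mem_map] at hg
      obtain ⟨p, hp, rfl⟩ := hg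
      have h3 : S.code p.1 < 6 := (hA6 _).1 (hl p hp)
      split_ifs
      · exact h3
      · rw [hinv6 _ h3]
        exact h3
    rw [h1, eval_v h2]
    exact eval_R (hR _ (G.ON.mem_relWords hr) h2)
  · have h1 : ¬ S.code x < 6 := fun h => hx ((hA6 _).2 h)
    simp [f, v_ge h1]
  · have h1 : ¬ S.code x < 6 := fun h => hx ((hA6 _).2 h)
    simp [f, v_ge h1]

theorem card_letL : Nat.card (S.letL A) = 3753792 := by
  have h1 := Subgroup.card_mul_index (Sys.subOf S ({Cfsg.Spor.ON.a, Cfsg.Spor.ON.b, Cfsg.Spor.ON.c, Cfsg.Spor.ON.d, Cfsg.Spor.ON.e, Cfsg.Spor.ON.f} : Set (FreeGroup Cfsg.Spor.ON.Gen)))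
  rw [Data.ONMain.hsubL] at h1
  have h2 := Data.ONMain.C.index_eq
  rw [Data.ONMain.hsubL] at h2
  rw [h2, Data.ONMain.faith.2] at h1
  exact Nat.eq_of_mul_eq_mul_right Data.ONMain.C.hn h1

theorem exists_ψ : ∃ ψ : S.letL A →* T, ∀ x (hx : S.code x ∈ A),
      ψ ⟨PresentedGroup.of x, by
        have h2 := S.mem_letL hx
        rwa [S.v_code] at h2⟩ = f x :=
  S.exists_hom_letL A Data.ONAbs.hA Data.ONAbs.hlt Data.ONAbs.card_top.1 Data.ONAbs.card_top.2
    (by rw [card_letL]) f hf

theorem hdec6 : ∀ g, g < 6 → S.code (S.dec g) = g := by decide +kernel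

theorem card_psl : 1876896 ≤ Nat.card PSL3 := by
  have hc := (sift ⊤ (fun _ _ => Subgroup.mem_top _)).2
  have h1 := (Subgroup.center SL3).card_mul_index
  have h2 : (Subgroup.center SL3).index = Nat.card PSL3 := rfl
  rw [h2, hc] at h1
  have h3 : Nat.card (Subgroup.center SL3) ≤ 3 := by
    rw [Nat.card_congr (Matrix.SpecialLinearGroup.center_equiv_rootsOfUnity (n := Fin 3) (R := K)).toEquiv]
    have : NeZero (max (Fintype.card (Fin 3)) 1) := ⟨by simp⟩
    have := card_rootsOfUnity (R := K) (k := max (Fintype.card (Fin 3)) 1)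
    simpa using this
  have h4 : Nat.card (Subgroup.center SL3) * Nat.card PSL3 ≤ 3 * Nat.card PSL3 := Nat.mul_le_mul_right _ h3
  omega

theorem card_units : Nat.card ℤˣ = 2 := by
  rw [Nat.card_eq_fintype_card]
  rfl

theorem main : ∃ N : Subgroup (S.letL A), N.Normal ∧ N.index = 2 ∧ Nonempty (N ≃* PSL3) := by
  classical
  obtain ⟨ψ, hψ⟩ := exists_ψ
  have htl : ∀ g, g < 6 → tl g ∈ ψ.range := by
    intro g hg
    have h1 := hdec6 g hg
    have h2 : S.code (S.dec g) ∈ A := by rw [h1]; exact (hA6 g).2 hg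
    refine ⟨_, (hψ (S.dec g) h2).trans ?_⟩
    rw [f, h1, v_lt hg]
  have hword : ∀ w : List ℕ, (∀ g ∈ w, g < 6) → evalWord tl w ∈ ψ.range := by
    intro w hw
    induction w with
    | nil => exact Subgroup.one_mem _
    | cons g w ih =>
      rw [evalWord_cons]
      exact Subgroup.mul_mem _ (htl g (hw g (by simp))) (ih (fun a ha => hw a (by simp [ha])))
  let J : Subgroup SL3 := ψ.range.comap uHom
  have hJ : ∀ k, k < 6 → gens k ∈ J := by
    intro k hk
    obtain ⟨_, _, h3, h4⟩ := hwords k hk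
    show uHom (evalWord a (dbl (WL.getD k []))) ∈ ψ.range
    rw [← eval_tl _ h4 h3]
    exact hword _ h3
  have hJtop := (sift J hJ).1
  have hu : ∀ X, uHom X ∈ ψ.range := fun X => by
    have : X ∈ J := hJtop ▸ Subgroup.mem_top X
    exact this
  have hsurj : Function.Surjective ψ := by
    rw [← MonoidHom.range_eq_top, eq_top_iff]
    rintro ⟨p, ε⟩ _
    obtain ⟨X, rfl⟩ := QuotientGroup.mk'_surjective _ p
    rcases Int.units_eq_one_or ε with rfl | rfl
    · exact hu X
    · have h1 : uHom (X * (a 0)⁻¹) * tl 0 = ⟨mkP X, -1⟩ := by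
        rw [tl, u_mul_pol]
        simp [pol]
      rw [← h1]
      exact Subgroup.mul_mem _ (hu _) (htl 0 (by norm_num))
  have hfinH : Finite (S.letL A) := Nat.finite_of_card_ne_zero (by rw [card_letL]; norm_num)
  have hcardT : Nat.card T = Nat.card PSL3 * 2 := by
    rw [Nat.card_congr SemidirectProduct.equivProd, Nat.card_prod, card_units]
  have hfinP : Finite PSL3 := by
    have := (sift ⊤ (fun _ _ => Subgroup.mem_top _)).2
    have h2 : Finite SL3 := Nat.finite_of_card_ne_zero (by rw [this]; norm_num)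
    exact inferInstance
  have hfinT : Finite T := Nat.finite_of_card_ne_zero (by
    rw [hcardT]
    have := card_psl
    omega)
  have hbij : Function.Bijective ψ := by
    apply hsurj.bijective_of_nat_card_le
    rw [card_letL, hcardT]
    have := card_psl
    omega
  refine ⟨(SemidirectProduct.rightHom.comp ψ).ker, inferInstance, ?_, ?_⟩
  · have hsr : Function.Surjective (SemidirectProduct.rightHom.comp ψ) := fun u => by
      obtain ⟨x, hx⟩ := hsurj (SemidirectProduct.inr u)
      exact ⟨x, by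
        show (ψ x).right = u
        rw [hx]
        rfl⟩
    rw [Subgroup.index_ker, MonoidHom.range_eq_top.2 hsr, Subgroup.card_top, card_units]
  · have hright : ∀ x : (SemidirectProduct.rightHom.comp ψ).ker, (ψ x.1).right = 1 := fun x => x.2
    let e : (SemidirectProduct.rightHom.comp ψ).ker →* PSL3 :=
      { toFun := fun x => (ψ x.1).left
        map_one' := by simp
        map_mul' := by
          intro x y
          show (ψ (x.1 * y.1)).left = _
          rw [map_mul, SemidirectProduct.mul_left, hright x, map_one]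
          rfl }
    refine ⟨MulEquiv.ofBijective e ⟨?_, ?_⟩⟩
    · intro x y h
      apply Subtype.ext
      apply hbij.1
      apply SemidirectProduct.ext h
      rw [hright, hright]
    · intro p
      obtain ⟨x, hx⟩ := hsurj (SemidirectProduct.inl p)
      refine ⟨⟨x, ?_⟩, ?_⟩
      · show (ψ x).right = 1
        rw [hx]
        rfl
      · show (ψ x).left = p
        rw [hx]
        rfl

theorem result : ∃ N : Subgroup (Sys.subOf S ({Cfsg.Spor.ON.a, Cfsg.Spor.ON.b, Cfsg.Spor.ON.c, Cfsg.Spor.ON.d, Cfsg.Spor.ON.e, Cfsg.Spor.ON.f} : Set (FreeGroup Cfsg.Spor.ON.Gen))), N.Normal ∧ N.index = 2 ∧ Nonempty (N ≃* Matrix.ProjectiveSpecialLinearGroup (Fin 3) (ZMod 7)) := by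
  rw [Data.ONMain.hsubL]
  exact main

end Cfsg.Agent.Lib.Iso.L37
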