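/-
The subgroup of the Fischer group Fi₂₂ generated by b, …, i is the simple orthogonal group of dimension seven over the
integers modulo three: its letters go to the negatives of reflections.
-/
import Cfsg.Agent.Lib.Iso.O73Data
import Cfsg.Agent.Lib.Mat.ZModCF
import Cfsg.Agent.Lib.TC.Data.Fi22Abs
import Cfsg.Agent.Lib.TC.Data.Fi22Main
import Cfsg.Agent.Lib.TC.Uniq
import Cfsg.Agent.S0292

set_option autoImplicit false

namespace Cfsg.Agent.Lib.Iso.O73

open Cfsg.Agent.Lib.TC Cfsg.Agent.Lib.TC.Fast Cfsg.Agent.Lib.Mat Cfsg.Agent.Lib.Iso.O73Data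
open Matrix
open scoped commutatorElement

abbrev K := ZMod 3

abbrev Ix := Unit ⊕ (Fin 3 ⊕ Fin 3)

abbrev M7 := Matrix (Fin 7) (Fin 7) K

abbrev V7 := Fin 7 → K

noncomputable def F : CF K := cfZMod 3

/-- The numbering of the index set. -/
def eo : Ix ≃ Fin 7 where
  toFun
    | .inl _ => 0
    | .inr (.inl i) => ⟨1 + i.val, by omega⟩
    | .inr (.inr i) => ⟨4 + i.val, by omega⟩
  invFun j :=
    if j.val = 0 then .inl ()
    else if h : j.val < 4 then .inr (.inl ⟨j.val - 1, by omega⟩)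
    else .inr (.inr ⟨j.val - 4, by omega⟩)
  left_inv := by decide
  right_inv := by decide

/-- The matrices with numbered indices. -/
noncomputable abbrev re : Matrix Ix Ix K ≃ₐ[K] M7 := Matrix.reindexAlgEquiv K K eo

/-- A matrix as a function. -/
def fnM (A : M7) : Fin 7 → Fin 7 → K := A

theorem eq_of_fnM {A B : M7} (h : ∀ i j, fnM A i j = fnM B i j) : A = B := Matrix.ext h

/-! ### The form -/

/-- The form in the numbered coordinates. -/
def qf (w : V7) : K := w 0 ^ 2 + w 1 * w 4 + w 2 * w 5 + w 3 * w 6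

theorem quad_eq (u : Ix → K) : Cfsg.quadFormOdd 3 K u = qf (u ∘ eo.symm) := by
  simp only [Cfsg.quadFormOdd, Fin.sum_univ_three, qf, add_assoc]
  rfl

/-- The Gram matrix. -/
noncomputable def Gp : ℕ := 2954763066713861984492

noncomputable abbrev Gn : M7 := toM F 7 Gp

theorem Gn_eq : Gn = !![2, 0, 0, 0, 0, 0, 0; 0, 0, 0, 0, 1, 0, 0; 0, 0, 0, 0, 0, 1, 0; 0, 0, 0, 0, 0, 0, 1;
    0, 1, 0, 0, 0, 0, 0; 0, 0, 1, 0, 0, 0, 0; 0, 0, 0, 1, 0, 0, 0] := by
  apply eq_of_fnM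
  decide +kernel

theorem two_qf (w : V7) : 2 * qf w = w ⬝ᵥ (Gn *ᵥ w) := by
  rw [Gn_eq]
  simp [qf, dotProduct, Matrix.mulVec, Fin.sum_univ_succ, vecHead, vecTail]
  have h3 : (3 : K) = 0 := by decide
  ring_nf

/-- The transpose of a number. -/
noncomputable def trP (A : ℕ) : ℕ := pk F.q (fun idx => ent F 7 A (Nat.mod idx 7) (Nat.div idx 7)) 49 0

theorem toM_trP (A : ℕ) : toM F 7 (trP A) = (toM F 7 A)ᵀ := by
  have hq : 0 < F.q := lt_trans Nat.zero_lt_one F.hq
  apply Matrix.ext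
  intro i j
  show F.c (dig F.q (7 * (i : ℕ) + j) (pk F.q _ 49 0)) = F.c (ent F 7 A j i)
  have h1 : 7 * (i : ℕ) + j < 49 := by omega
  rw [dig_pk hq (f := fun idx => ent F 7 A (Nat.mod idx 7) (Nat.div idx 7)) (fun _ => dig_lt hq _ _) h1, Nat.zero_add]
  have e1 : Nat.div (7 * (i : ℕ) + j) 7 = i := by
    show (7 * (i : ℕ) + j) / 7 = i
    omega
  have e2 : Nat.mod (7 * (i : ℕ) + j) 7 = j := by
    show (7 * (i : ℕ) + j) % 7 = j
    omega
  simp only [e1, e2]

noncomputable def M (k : ℕ) : ℕ := ML.getD k 0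

theorem hM : ∀ k, k < 63 → mm F 7 (M k) (M k) = oneP F 7 ∧ mm F 7 (mm F 7 (trP (M k)) Gp) (M k) = Gp := by
  decide +kernel

theorem M_sq {k : ℕ} (hk : k < 63) : toM F 7 (M k) * toM F 7 (M k) = 1 := by
  rw [← toM_mm, (hM k hk).1, toM_oneP]

theorem qf_M {k : ℕ} (hk : k < 63) (w : V7) : qf (toM F 7 (M k) *ᵥ w) = qf w := by
  have h1 : (toM F 7 (M k))ᵀ * Gn * toM F 7 (M k) = Gn := by
    rw [← toM_trP, ← toM_mm, ← toM_mm, (hM k hk).2]
  have h3 : ∀ (X : M7) (u w : V7), (X *ᵥ u) ⬝ᵥ w = u ⬝ᵥ (Xᵀ *ᵥ w) := by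
    intro X u w
    rw [Matrix.dotProduct_mulVec, Matrix.vecMul_transpose]
  have h2 : 2 * qf (toM F 7 (M k) *ᵥ w) = 2 * qf w := by
    rw [two_qf, two_qf, h3, Matrix.mulVec_mulVec, Matrix.mulVec_mulVec, h1]
  exact mul_left_cancel₀ (by decide) h2

/-! ### The isometries -/

theorem re_symm_mulVec (A : M7) (u : Ix → K) : (re.symm A) *ᵥ u = (A *ᵥ (u ∘ eo.symm)) ∘ eo := by
  have h : re.symm A = A.submatrix eo eo := rfl
  rw [h, Matrix.submatrix_mulVec_equiv]

theorem comp_symm (f : V7) : (f ∘ eo) ∘ eo.symm = f := by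
  funext i
  simp

theorem sq_re {k : ℕ} (hk : k < 63) : re.symm (toM F 7 (M k)) * re.symm (toM F 7 (M k)) = 1 := by
  rw [← map_mul, M_sq hk, map_one]

/-- The invertible matrices. -/
noncomputable def glM (k : ℕ) (hk : k < 63) : GL Ix K :=
  ⟨re.symm (toM F 7 (M k)), re.symm (toM F 7 (M k)), sq_re hk, sq_re hk⟩

abbrev O := Cfsg.isometryGroup K (Cfsg.quadFormOdd 3 K)

abbrev T := Cfsg.Omega K (Cfsg.quadFormOdd 3 K)

theorem iso_mem (k : ℕ) (hk : k < 63) : glM k hk ∈ O := by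
  intro u _
  show Cfsg.quadFormOdd 3 K ((re.symm (toM F 7 (M k))) *ᵥ u) = Cfsg.quadFormOdd 3 K u
  rw [re_symm_mulVec, quad_eq, quad_eq, comp_symm, qf_M hk]

/-- The elements of the isometry group. -/
noncomputable def oG (k : ℕ) : O := if h : k < 63 then ⟨glM k h, iso_mem k h⟩ else 1

noncomputable def ι₀ : O →* M7 where
  toFun g := re (g.1 : GL Ix K).1
  map_one' := map_one re
  map_mul' a b := map_mul re (a.1 : GL Ix K).1 (b.1 : GL Ix K).1

theorem ι₀_inj {a b : O} (h : ι₀ a = ι₀ b) : a = b := Subtype.ext (Units.ext (re.injective h))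

theorem ι₀_oG {k : ℕ} (hk : k < 63) : ι₀ (oG k) = toM F 7 (M k) := by
  show re ((oG k).1 : GL Ix K).1 = _
  rw [oG, dif_pos hk]
  exact AlgEquiv.apply_symm_apply _ _

theorem oG_sq {k : ℕ} (hk : k < 63) : oG k * oG k = 1 := by
  apply ι₀_inj
  rw [map_mul, ι₀_oG hk, M_sq hk, map_one]

theorem coe_evalO (w : List ℕ) (hw : ∀ g ∈ w, g < 63) :
    ι₀ (evalWord oG w) = toM F 7 (evalP F 7 M w (oneP F 7)) := by
  rw [toM_evalP, toM_oneP, one_mul]
  induction w with
  | nil => exact map_one ι₀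
  | cons g w ih =>
    rw [evalWord_cons, map_mul, List.map_cons, List.prod_cons, ih (fun x hx => hw x (by simp [hx])), ι₀_oG (hw g (by simp))]

/-- The word of three commutators of reflections. -/
def wc (g : ℕ) : List ℕ :=
  let r := fun i => 9 + 6 * g + i
  [r 0, r 1, r 0, r 1, r 2, r 3, r 2, r 3, r 4, r 5, r 4, r 5]

theorem hwc : ∀ g, g < 8 + 1 → evalP F 7 M (wc g) (oneP F 7) = M g := by decide +kernel

theorem word_comm {G : Type*} [Group G] (a b c d e f : G) (ha : a * a = 1) (hb : b * b = 1) (hc : c * c = 1) (hd : d * d = 1)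
    (he : e * e = 1) (hf : f * f = 1) :
    a * (b * (a * (b * (c * (d * (c * (d * (e * (f * (e * (f * 1))))))))))) = ⁅a, b⁆ * ⁅c, d⁆ * ⁅e, f⁆ := by
  have ia : a⁻¹ = a := inv_eq_of_mul_eq_one_left ha
  have ib : b⁻¹ = b := inv_eq_of_mul_eq_one_left hb
  have ic : c⁻¹ = c := inv_eq_of_mul_eq_one_left hc
  have id : d⁻¹ = d := inv_eq_of_mul_eq_one_left hd
  have ie : e⁻¹ = e := inv_eq_of_mul_eq_one_left he
  have iff' : f⁻¹ = f := inv_eq_of_mul_eq_one_left hf
  simp only [commutatorElement_def, ia, ib, ic, id, ie, iff', mul_assoc, mul_one]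

theorem oG_mem {g : ℕ} (hg : g < 9) : oG g ∈ commutator O := by
  have h1 : oG g = evalWord oG (wc g) := by
    apply ι₀_inj
    have hl : ∀ x ∈ wc g, x < 63 := by
      intro x hx
      simp only [wc, List.mem_cons, List.not_mem_nil, or_false] at hx
      omega
    rw [coe_evalO _ hl, hwc g hg, ι₀_oG (by omega)]
  have e : ∀ i, i < 6 → oG (9 + 6 * g + i) * oG (9 + 6 * g + i) = 1 := fun i hi => oG_sq (by omega)
  rw [h1]
  simp only [wc, evalWord_cons, evalWord_nil]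
  rw [word_comm _ _ _ _ _ _ (e 0 (by norm_num)) (e 1 (by norm_num)) (e 2 (by norm_num)) (e 3 (by norm_num))
    (e 4 (by norm_num)) (e 5 (by norm_num))]
  have hm : ∀ a b : O, ⁅a, b⁆ ∈ commutator O := fun a b =>
    Subgroup.commutator_mem_commutator (Subgroup.mem_top a) (Subgroup.mem_top b)
  exact Subgroup.mul_mem _ (Subgroup.mul_mem _ (hm _ _) (hm _ _)) (hm _ _)

/-- The letters in the commutator subgroup. -/
noncomputable def ζ (g : ℕ) : T := if h : g < 9 then ⟨oG g, oG_mem h⟩ else 1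

noncomputable def ι : T →* M7 := ι₀.comp (Subgroup.subtype _)

theorem ι_inj {a b : T} (h : ι a = ι b) : a = b := Subtype.ext (ι₀_inj h)

theorem ι_ζ {g : ℕ} (hg : g < 9) : ι (ζ g) = toM F 7 (M g) := by
  show ι₀ (ζ g).1 = _
  rw [ζ, dif_pos hg]
  exact ι₀_oG (by omega)

theorem coe_eval (w : List ℕ) (hw : ∀ g ∈ w, g < 9) :
    ι (evalWord ζ w) = toM F 7 (evalP F 7 M w (oneP F 7)) := by
  rw [toM_evalP, toM_oneP, one_mul]
  induction w with
  | nil => exact map_one ι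
  | cons g w ih =>
    rw [evalWord_cons, map_mul, List.map_cons, List.prod_cons, ih (fun x hx => hw x (by simp [hx])), ι_ζ (hw g (by simp))]

theorem ζ_sq {g : ℕ} (hg : g < 9) : ζ g * ζ g = 1 := by
  apply ι_inj
  rw [map_mul, ι_ζ hg, M_sq (by omega), map_one]

theorem ζ_inv (g : ℕ) : (ζ g)⁻¹ = ζ g := by
  by_cases hg : g < 9
  · exact inv_eq_of_mul_eq_one_left (ζ_sq hg)
  · rw [ζ, dif_neg hg, inv_one]

theorem hM0 : M 0 = oneP F 7 := by decide +kernel

theorem ζ_zero : ζ 0 = 1 := by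
  apply ι_inj
  rw [ι_ζ (by norm_num), hM0, toM_oneP, map_one]

/-! ### The homomorphism -/

noncomputable abbrev S : Sys Cfsg.Spor.Fi22.Gen := G.Fi22.sys

noncomputable abbrev S' : Sys Cfsg.Spor.Fi22.Gen := Data.Fi22Abs.S'

abbrev A : List ℕ := Data.Fi22Abs.A

theorem hinv9 : ∀ g, g < 9 → S.inv g = g := by decide +kernel

theorem hv (x : Cfsg.Spor.Fi22.Gen) : ζ (S.inv (S.code x)) = (ζ (S.code x))⁻¹ := by
  rw [hinv9 _ (S.hcode x), ζ_inv]

/-- The values of the generators. -/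
noncomputable def f (x : Cfsg.Spor.Fi22.Gen) : T := ζ (S.code x)

theorem hR : ∀ w ∈ G.Fi22.relWords, (∀ g ∈ w, g ∈ A) → evalP F 7 M w (oneP F 7) = oneP F 7 := by decide +kernel

theorem hA9 : ∀ g ∈ A, g < 9 := by decide +kernel

theorem hA0 : ∀ g, g < 9 → g ∉ A → g = 0 := by decide +kernel

theorem hf : ∀ r ∈ S'.rels, FreeGroup.lift f r = 1 := by
  rintro r ((⟨hr, hl⟩ | ⟨x, hx, rfl⟩) | ⟨x, hx, rfl⟩)
  · have h1 : FreeGroup.lift f r = evalWord ζ (encW S.code S.inv r) := lift_eq_evalWord S.code S.inv ζ hv r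
    have h2 : ∀ g ∈ encW S.code S.inv r, g ∈ A := by
      intro g hg
      simp only [encW, List.mem_map] at hg
      obtain ⟨p, hp, rfl⟩ := hg
      have h3 : S.code p.1 ∈ A := hl p hp
      split_ifs
      · exact h3
      · rw [hinv9 _ (S.hcode p.1)]
        exact h3
    rw [h1]
    apply ι_inj
    have h5 : evalP F 7 M (encW S.code S.inv r) (oneP F 7) = oneP F 7 := hR _ (G.Fi22.mem_relWords hr) h2
    rw [coe_eval _ (fun g hg => hA9 g (h2 g hg)), h5, toM_oneP, map_one]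
  · have h1 := hA0 _ (S.hcode x) hx
    simp [f, h1, ζ_zero]
  · have h1 := hA0 _ (S.hcode x) hx
    simp [f, h1, ζ_zero]

theorem card_letL : Nat.card (S.letL A) = 4585351680 := by
  have h1 := Subgroup.card_mul_index (Sys.subOf S ({Cfsg.Spor.Fi22.b, Cfsg.Spor.Fi22.c, Cfsg.Spor.Fi22.d, Cfsg.Spor.Fi22.e,
    Cfsg.Spor.Fi22.f, Cfsg.Spor.Fi22.g, Cfsg.Spor.Fi22.h, Cfsg.Spor.Fi22.i} : Set (FreeGroup Cfsg.Spor.Fi22.Gen)))
  rw [Data.Fi22b.checked.index_eq, Data.Fi22Main.faith.2, Data.Fi22Main.hsubL] at h1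
  have h2 : Data.Fi22b.checked.n = 14080 := rfl
  have h3 : Data.Fi22Main.C.n = 3510 := rfl
  rw [h2, h3] at h1
  have h4 : Nat.card (S.letL [1, 2, 3, 4, 5, 6, 7, 8]) = Nat.card (S.letL A) := rfl
  rw [h4] at h1
  have h5 : Nat.card (S.letL A) * 14080 = 4585351680 * 14080 := h1.trans (by norm_num)
  exact Nat.eq_of_mul_eq_mul_right (by norm_num) h5

theorem exists_ψ : ∃ ψ : S.letL A →* T, ∀ x (hx : S.code x ∈ A),
      ψ ⟨PresentedGroup.of x, by
        have h2 := S.mem_letL hx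
        rwa [S.v_code] at h2⟩ = f x :=
  S.exists_hom_letL A Data.Fi22Abs.hA Data.Fi22Abs.hlt Data.Fi22Abs.card_top.1 Data.Fi22Abs.card_top.2
    (by rw [card_letL]) f hf

/-! ### The vectors -/

/-- The vectors. -/
noncomputable def rp (n : ℕ) : ℕ := Nat.land (Nat.shiftRight rpP (Nat.mul 12 n)) 4095

/-- The table of the letters on the vectors. -/
noncomputable def tO (n g : ℕ) : ℕ := Nat.land (Nat.shiftRight tOP (Nat.mul 10 (Nat.add (Nat.mul 9 n) g))) 1023

noncomputable def vv (n : ℕ) : V7 := toV F 7 (rp n)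

noncomputable abbrev α := actPerm (Γ := T) ι

theorem α_ζ {g : ℕ} (hg : g < 9) (v : ℕ) : α (ζ g) (toV F 7 v) = toV F 7 (mv F 7 (M g) v) := by
  rw [toV_mv, actPerm_apply, ι_ζ hg]

theorem chkL : allF (fun n => allF (fun g =>
    bf (Nat.blt (tO n g) 702) (Nat.beq (mv F 7 (M g) (rp n)) (rp (tO n g))) false) 0 9) 0 702 = true := by
  decide +kernel

theorem chkR : allF (fun n => Nat.blt (rp n) 2187) 0 702 = true := by decide +kernel

theorem chkU : uniqF rp 702 0 = true := by decide +kernel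

theorem bf_spec {c a : Bool} (h : bf c a false = true) : c = true ∧ a = true := by
  cases c <;> simp_all [bf]

theorem spec_L {n g : ℕ} (hn : n < 702) (hg : g < 9) : tO n g < 702 ∧ mv F 7 (M g) (rp n) = rp (tO n g) := by
  have h1 := allF_spec' _ _ chkL n hn
  have h2 := allF_spec' _ _ h1 g hg
  obtain ⟨h3, h4⟩ := bf_spec h2
  exact ⟨nat_blt_true h3, Nat.eq_of_beq_eq_true h4⟩

theorem hN : 2187 = F.q ^ 7 := by
  show 2187 = 3 ^ 7
  norm_num

theorem rp_lt {n : ℕ} (hn : n < 702) : rp n < F.q ^ 7 := by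
  rw [← hN]
  exact nat_blt_true (allF_spec' _ _ chkR n hn)

theorem vv_inj {n m : ℕ} (hn : n < 702) (hm : m < 702) (h : vv n = vv m) : n = m :=
  (uniqF_spec rp 702 0 chkU).2 n m hn hm (toV_inj F (rp_lt hn) (rp_lt hm) h)

theorem α_vv {g n : ℕ} (hg : g < 9) (hn : n < 702) : α (ζ g) (vv n) = vv (tO n g) := by
  rw [vv, α_ζ hg, (spec_L hn hg).2]
  rfl

/-- The permutations of the vectors. -/
noncomputable def tb : Tbl where
  n := 702
  ng := 9
  T := tO
  inv := fun g => g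
  hT := fun _ hi _ hg => (spec_L hi hg).1
  hinv := fun g hg => ⟨hg, rfl⟩
  hTT := by decide +kernel

theorem hlet : ∀ w ∈ SW, ∀ g ∈ w, g < tb.ng := by decide +kernel

theorem L9 : 1 ≤ Nat.card (tb.gp (SW.drop 27)) := Tbl.gp_drop_length tb SW 27 (by decide +kernel)

theorem fix5 : relsOk tO (SW.drop 27) 395 = true := by decide +kernel

theorem orb5 : orbFold tO (fun g => wordAt SW (Nat.add g 26)) (SW.length - 26) 702 es5 (Nat.shiftLeft (nat_lit 1) (nat_lit 395)) = true := by decide +kernel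

theorem L5 : 2 ≤ Nat.card (tb.gp (SW.drop 26)) :=
  Tbl.levelD tb SW hlet 26 27 (by decide) 395 (by decide +kernel) fix5 es5 orb5 1 2 L9 (by decide +kernel)

theorem fix4 : relsOk tO (SW.drop 26) 518 = true := by decide +kernel

theorem orb4 : orbFold tO (fun g => wordAt SW (Nat.add g 23)) (SW.length - 23) 702 es4 (Nat.shiftLeft (nat_lit 1) (nat_lit 518)) = true := by decide +kernel

theorem L4 : 18 ≤ Nat.card (tb.gp (SW.drop 23)) :=
  Tbl.levelD tb SW hlet 23 26 (by decide) 518 (by decide +kernel) fix4 es4 orb4 2 18 L5 (by decide +kernel)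

theorem fix3 : relsOk tO (SW.drop 23) 451 = true := by decide +kernel

theorem orb3 : orbFold tO (fun g => wordAt SW (Nat.add g 19)) (SW.length - 19) 702 es3 (Nat.shiftLeft (nat_lit 1) (nat_lit 451)) = true := by decide +kernel

theorem L3 : 360 ≤ Nat.card (tb.gp (SW.drop 19)) :=
  Tbl.levelD tb SW hlet 19 23 (by decide) 451 (by decide +kernel) fix3 es3 orb3 18 360 L4 (by decide +kernel)

theorem fix2 : relsOk tO (SW.drop 19) 104 = true := by decide +kernel

theorem orb2 : orbFold tO (fun g => wordAt SW (Nat.add g 14)) (SW.length - 14) 702 es2 (Nat.shiftLeft (nat_lit 1) (nat_lit 104)) = true := by decide +kernel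

theorem L2 : 29160 ≤ Nat.card (tb.gp (SW.drop 14)) :=
  Tbl.levelD tb SW hlet 14 19 (by decide) 104 (by decide +kernel) fix2 es2 orb2 360 29160 L3 (by decide +kernel)

theorem fix1 : relsOk tO (SW.drop 14) 402 = true := by decide +kernel

theorem orb1 : orbFold tO (fun g => wordAt SW (Nat.add g 8)) (SW.length - 8) 702 es1 (Nat.shiftLeft (nat_lit 1) (nat_lit 402)) = true := by decide +kernel

theorem L1 : 6531840 ≤ Nat.card (tb.gp (SW.drop 8)) :=
  Tbl.levelD tb SW hlet 8 14 (by decide) 402 (by decide +kernel) fix1 es1 orb1 29160 6531840 L2 (by decide +kernel)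

theorem fix0 : relsOk tO (SW.drop 8) 146 = true := by decide +kernel

theorem orb0 : orbFold tO (fun g => wordAt SW (Nat.add g 0)) (SW.length - 0) 702 es0 (Nat.shiftLeft (nat_lit 1) (nat_lit 146)) = true := by decide +kernel

theorem L0 : 4585351680 ≤ Nat.card (tb.gp (SW.drop 0)) :=
  Tbl.levelD tb SW hlet 0 8 (by decide) 146 (by decide +kernel) fix0 es0 orb0 6531840 4585351680 L1 (by decide +kernel)

/-- An element of the group acting on the vectors as a permutation. -/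
def Re (a : Equiv.Perm (Fin tb.n)) (k : T) : Prop := ∀ n : Fin tb.n, α k (vv n.val) = vv (a n).val

theorem Re_letter {g : ℕ} (hg : g < 9) : Re (tb.perm g) (ζ g) := by
  intro n
  rw [tb.perm_val hg]
  exact α_vv hg n.2

theorem Re_word (w : List ℕ) (hw : ∀ g ∈ w, g < 9) : Re (evalWord tb.perm w) (evalWord ζ w) := by
  induction w with
  | nil =>
    intro n
    show α 1 _ = vv ((1 : Equiv.Perm (Fin tb.n)) n).val
    rw [map_one]
    rfl
  | cons g w ih =>
    intro n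
    rw [evalWord_cons, evalWord_cons, map_mul, Equiv.Perm.mul_apply, Equiv.Perm.mul_apply,
      ih (fun x hx => hw x (by simp [hx])) n]
    exact Re_letter (hw g (by simp)) _

theorem exists_Re (L : Subgroup T) (hL : ∀ g, g < 9 → ζ g ∈ L) : ∀ a ∈ tb.gp SW, ∃ k ∈ L, Re a k := by
  have hW : ∀ w : List ℕ, (∀ g ∈ w, g < 9) → evalWord ζ w ∈ L := by
    intro w hw
    induction w with
    | nil => exact L.one_mem
    | cons g w ih =>
      rw [evalWord_cons]
      exact L.mul_mem (hL g (hw g (by simp))) (ih (fun a ha => hw a (by simp [ha])))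
  intro a ha
  induction ha using Subgroup.closure_induction with
  | mem a h =>
    obtain ⟨w, hw, rfl⟩ := h
    exact ⟨_, hW w (hlet w hw), Re_word w (hlet w hw)⟩
  | one =>
    refine ⟨1, L.one_mem, fun n => ?_⟩
    rw [map_one]
    rfl
  | mul a b _ _ ha hb =>
    obtain ⟨k₁, hk₁, h₁⟩ := ha
    obtain ⟨k₂, hk₂, h₂⟩ := hb
    refine ⟨k₁ * k₂, L.mul_mem hk₁ hk₂, fun n => ?_⟩
    rw [map_mul, Equiv.Perm.mul_apply, Equiv.Perm.mul_apply, h₂, h₁]
  | inv a _ ha =>
    obtain ⟨k, hk, h⟩ := ha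
    refine ⟨k⁻¹, L.inv_mem hk, fun n => ?_⟩
    rw [map_inv, Equiv.Perm.inv_eq_iff_eq, h]
    simp

theorem card_le (L : Subgroup T) (hL : ∀ g, g < 9 → ζ g ∈ L) [Finite T] : 4585351680 ≤ Nat.card L := by
  classical
  have h := L0
  rw [List.drop_zero] at h
  refine h.trans ?_
  choose f hf hf' using fun a : tb.gp SW => exists_Re L hL a.1 a.2
  refine Nat.card_le_card_of_injective (fun a => (⟨f a, hf a⟩ : L)) ?_
  intro a b hab
  have h0 : f a = f b := congrArg Subtype.val hab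
  apply Subtype.ext
  apply Equiv.ext
  intro n
  have h1 := hf' a n
  rw [h0, hf' b n] at h1
  apply Fin.ext
  exact (vv_inj (b.1 n).2 (a.1 n).2 h1).symm

/-! ### The order of the group -/

open Cfsg.Agent.Lib.Classical.Orth Cfsg.Agent.Lib.Classical.Abs in
theorem card_T : Nat.card T = 4585351680 ∧ Nat.card (Cfsg.POmega K (Cfsg.quadFormOdd 3 K)) = 4585351680 := by
  classical
  have e : Cfsg.quadFormOdd 3 K = ⇑(Qodd 3 K) := funext fun v => (Qodd_apply 3 v).symm
  have h2 : (2 : K) ≠ 0 := by decide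
  have hQ := Qodd_nondeg h2 3
  have hcard : Fintype.card Ix = 7 := by simp
  have hneg := negOG_not_mem_of_odd (Qodd 3 K) h2 hQ (by rw [hcard]; decide)
  have hfr : 4 ≤ Module.finrank K (Ix → K) := by simp
  have hc := (card_center_odd h2 hQ hfr).2 hneg
  have h4 : Nat.card (Subgroup.center (Cfsg.Omega K ⇑(Qodd 3 K))) = Nat.card (Subgroup.center (commutator (OG (Qodd 3 K)))) :=
    Nat.card_congr (Subgroup.centerCongr (omegaEquiv (Qodd 3 K))).toEquiv
  have h1 := Subgroup.card_eq_card_quotient_mul_card_subgroup (Subgroup.center (Cfsg.Omega K ⇑(Qodd 3 K)))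
  have h5 := Cfsg.Agent.S0292.result (F := K) (q := 3) (ZMod.card 3) (by decide) 3 (le_refl 3)
  have h6 : (3 : ℕ) ^ (3 ^ 2) * ∏ i ∈ Finset.range 3, (3 ^ (2 * (i + 1)) - 1) = 9170703360 := by
    simp [Finset.prod_range_succ]
  rw [h6] at h5
  have h7 : Nat.card (Cfsg.POmega K (Cfsg.quadFormOdd 3 K)) = 4585351680 := by omega
  refine ⟨?_, h7⟩
  rw [e] at h7
  show Nat.card (Cfsg.Omega K (Cfsg.quadFormOdd 3 K)) = _
  rw [e, h1, h4, hc, mul_one]
  exact h7

theorem main : Nonempty (S.letL A ≃* Cfsg.POmega K (Cfsg.quadFormOdd 3 K)) := by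
  obtain ⟨ψ, hψ⟩ := exists_ψ
  obtain ⟨hT, hP⟩ := card_T
  have hfinT : Finite T := Nat.finite_of_card_ne_zero (by rw [hT]; norm_num)
  have hfinH : Finite (S.letL A) := Nat.finite_of_card_ne_zero (by rw [card_letL]; norm_num)
  have hdec : ∀ g, g ∈ A → S.code (S.dec g) = g := by decide +kernel
  have hζ : ∀ g, g < 9 → ζ g ∈ ψ.range := by
    intro g hg
    by_cases hgA : g ∈ A
    · have h1 := hdec g hgA
      have h2 : S.code (S.dec g) ∈ A := by rw [h1]; exact hgA
      refine ⟨_, (hψ (S.dec g) h2).trans ?_⟩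
      rw [f, h1]
    · rw [hA0 g hg hgA, ζ_zero]
      exact Subgroup.one_mem _
  have hc := card_le ψ.range hζ
  have htop : ψ.range = ⊤ := Subgroup.eq_top_of_le_card _ (by rw [hT]; exact hc)
  have hs : Function.Surjective ψ := MonoidHom.range_eq_top.1 htop
  let ψ' : S.letL A →* Cfsg.POmega K (Cfsg.quadFormOdd 3 K) := (QuotientGroup.mk' _).comp ψ
  have hs' : Function.Surjective ψ' := (QuotientGroup.mk'_surjective _).comp hs
  have hbij : Function.Bijective ψ' := by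
    apply hs'.bijective_of_nat_card_le
    rw [card_letL, hP]
  exact ⟨MulEquiv.ofBijective ψ' hbij⟩

theorem result : Nonempty (Sys.subOf S ({Cfsg.Spor.Fi22.b, Cfsg.Spor.Fi22.c, Cfsg.Spor.Fi22.d, Cfsg.Spor.Fi22.e,
    Cfsg.Spor.Fi22.f, Cfsg.Spor.Fi22.g, Cfsg.Spor.Fi22.h, Cfsg.Spor.Fi22.i} : Set (FreeGroup Cfsg.Spor.Fi22.Gen)) ≃*
    Cfsg.POmega K (Cfsg.quadFormOdd 3 K)) := by
  rw [Data.Fi22Main.hsubL]
  exact main

end Cfsg.Agent.Lib.Iso.O73
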