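/-
The subgroup of Held's group fixing a point of the table has a subgroup of index two which is the symplectic group over
the field with four elements.
-/
import Cfsg.Agent.Lib.Iso.Sp44Data
import Cfsg.Agent.Lib.Mat.F4CF
import Cfsg.Agent.Lib.TC.InterOn
import Cfsg.Agent.Lib.TC.Data.HeMain

set_option autoImplicit false

namespace Cfsg.Agent.Lib.Iso.Sp44

open Cfsg.Agent.Lib.TC Cfsg.Agent.Lib.TC.Fast Cfsg.Agent.Lib.Mat Cfsg.Agent.Lib.Iso.Sp44Data
open Matrix

abbrev K := Cfsg.Agent.Lib.Classical.FF4.F4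

noncomputable def F : CF K := cfF4

abbrev Sp := Matrix.symplecticGroup (Fin 2) K

abbrev M4 := Matrix (Fin 4) (Fin 4) K

/-- The numbering of the index set of the symplectic group. -/
def eo : Fin 2 ⊕ Fin 2 ≃ Fin 4 := finSumFinEquiv

/-- The matrices with numbered indices. -/
noncomputable abbrev re : Matrix (Fin 2 ⊕ Fin 2) (Fin 2 ⊕ Fin 2) K ≃ₐ[K] M4 := Matrix.reindexAlgEquiv K K eo

theorem re_transpose (A : Matrix (Fin 2 ⊕ Fin 2) (Fin 2 ⊕ Fin 2) K) : re Aᵀ = (re A)ᵀ := rfl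

/-- The form as a number. -/
noncomputable def J4p : ℕ := 67190800

noncomputable abbrev Jn : M4 := toM F 4 J4p

/-- A matrix as a function. -/
def fnM (A : M4) : Fin 4 → Fin 4 → K := A

theorem eq_of_fnM {A B : M4} (h : ∀ i j, fnM A i j = fnM B i j) : A = B := Matrix.ext h

theorem hJ : re (Matrix.J (Fin 2) K) = Jn := by
  apply eq_of_fnM
  decide +kernel

/-- The transpose of a number. -/
noncomputable def trP (A : ℕ) : ℕ := pk F.q (fun idx => ent F 4 A (Nat.mod idx 4) (Nat.div idx 4)) 16 0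

theorem toM_trP (A : ℕ) : toM F 4 (trP A) = (toM F 4 A)ᵀ := by
  have hq : 0 < F.q := lt_trans Nat.zero_lt_one F.hq
  apply Matrix.ext
  intro i j
  show F.c (dig F.q (4 * (i : ℕ) + j) (pk F.q _ 16 0)) = F.c (ent F 4 A j i)
  have h1 : 4 * (i : ℕ) + j < 16 := by omega
  rw [dig_pk hq (f := fun idx => ent F 4 A (Nat.mod idx 4) (Nat.div idx 4)) (fun _ => dig_lt hq _ _) h1, Nat.zero_add]
  have e1 : Nat.div (4 * (i : ℕ) + j) 4 = i := by
    show (4 * (i : ℕ) + j) / 4 = i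
    omega
  have e2 : Nat.mod (4 * (i : ℕ) + j) 4 = j := by
    show (4 * (i : ℕ) + j) % 4 = j
    omega
  simp only [e1, e2]

noncomputable def Ms (g : ℕ) : ℕ := MsL.getD g 0

theorem hsp : ∀ j, j < 6 → mm F 4 (mm F 4 (Ms j) J4p) (trP (Ms j)) = J4p := by decide +kernel

theorem mem_sp {j : ℕ} (hj : j < 6) : re.symm (toM F 4 (Ms j)) ∈ Matrix.symplecticGroup (Fin 2) K := by
  rw [SymplecticGroup.mem_iff]
  apply re.injective
  rw [map_mul, map_mul, re_transpose, AlgEquiv.apply_symm_apply, hJ, ← toM_trP, ← toM_mm, ← toM_mm, hsp j hj]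

/-- The letters. -/
noncomputable def zz (j : ℕ) : Sp := if h : j < 6 then ⟨re.symm (toM F 4 (Ms j)), mem_sp h⟩ else 1

noncomputable def ι : Sp →* M4 where
  toFun g := re g.1
  map_one' := map_one re
  map_mul' a b := map_mul re a.1 b.1

theorem ι_zz {j : ℕ} (hj : j < 6) : ι (zz j) = toM F 4 (Ms j) := by
  show re (zz j).1 = _
  rw [zz, dif_pos hj]
  exact AlgEquiv.apply_symm_apply _ _

theorem ι_eq_one {g : Sp} (h : ι g = 1) : g = 1 := by
  apply Subtype.ext
  apply re.injective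
  have h1 : re (1 : Sp).1 = 1 := map_one re
  rw [h1]
  exact h

noncomputable abbrev α := actPerm (Γ := Sp) ι

theorem coe_eval (w : List ℕ) (hw : ∀ g ∈ w, g < 6) :
    ι (evalWord zz w) = toM F 4 (evalP F 4 Ms w (oneP F 4)) := by
  rw [toM_evalP, toM_oneP, one_mul]
  induction w with
  | nil => exact map_one ι
  | cons g w ih =>
    rw [evalWord_cons, map_mul, List.map_cons, List.prod_cons, ih (fun x hx => hw x (by simp [hx])), ι_zz (hw g (by simp))]

noncomputable def Ms2 (k : ℕ) : ℕ := GPL.getD k 0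

noncomputable def gens (k : ℕ) : Sp := evalWord zz (GW.getD k [])

theorem hwords : ∀ k, k < 9 → evalP F 4 Ms (GW.getD k []) (oneP F 4) = Ms2 k ∧ (∀ g ∈ GW.getD k [], g < 6) := by
  decide +kernel

theorem ι_gens {k : ℕ} (hk : k < 9) : ι (gens k) = toM F 4 (Ms2 k) := by
  obtain ⟨h1, h2⟩ := hwords k hk
  rw [gens, coe_eval _ h2, h1]

theorem α_gens {k : ℕ} (hk : k < 9) (v : ℕ) : α (gens k) (toV F 4 v) = toV F 4 (mv F 4 (Ms2 k) v) := by
  rw [toV_mv, actPerm_apply, ι_gens hk]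

theorem fixA : ∀ k, k < 7 → mv F 4 (Ms2 k) 1 = 1 := by decide +kernel
theorem fixB : ∀ k, k < 4 → mv F 4 (Ms2 k) 16 = 16 := by decide +kernel
theorem fixC : ∀ k, k < 2 → mv F 4 (Ms2 k) 4 = 4 := by decide +kernel

/-! ### The form -/

/-- The form. -/
def om (u v : Fin 4 → K) : K := u 0 * v 2 + u 1 * v 3 + u 2 * v 0 + u 3 * v 1

theorem Jn_mulVec (v : Fin 4 → K) : Jn *ᵥ v = ![v 2, v 3, v 0, v 1] := by
  have h2 : Jn = (!![0, 0, 1, 0; 0, 0, 0, 1; 1, 0, 0, 0; 0, 1, 0, 0] : M4) := by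
    apply eq_of_fnM
    decide +kernel
  rw [h2]
  funext i
  fin_cases i <;> simp [Matrix.mulVec, dotProduct, Fin.sum_univ_four]

theorem om_eq (u v : Fin 4 → K) : om u v = u ⬝ᵥ (Jn *ᵥ v) := by
  rw [Jn_mulVec]
  simp [om, dotProduct, Fin.sum_univ_four]

theorem om_inv (g : Sp) (u v : Fin 4 → K) : om (α g u) (α g v) = om u v := by
  have h1 : (g.1)ᵀ * Matrix.J (Fin 2) K * g.1 = Matrix.J (Fin 2) K := SymplecticGroup.mem_iff'.1 g.2
  have h2 : (ι g)ᵀ * Jn * ι g = Jn := by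
    have h3 := congrArg re h1
    rw [map_mul, map_mul, re_transpose, hJ] at h3
    exact h3
  have h3 : ∀ (X : M4) (u w : Fin 4 → K), (X *ᵥ u) ⬝ᵥ w = u ⬝ᵥ (Xᵀ *ᵥ w) := by
    intro X u w
    rw [Matrix.dotProduct_mulVec, Matrix.vecMul_transpose]
  rw [om_eq, om_eq, actPerm_apply, actPerm_apply, h3, Matrix.mulVec_mulVec, Matrix.mulVec_mulVec, h2]

/-! ### The chain of stabilisers -/

noncomputable def dg (i p : ℕ) : ℕ := dig F.q i p

noncomputable def C0 (p : ℕ) : Bool := Nat.blt 0 p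
noncomputable def C1 (p : ℕ) : Bool := Nat.beq (dg 2 p) 1
noncomputable def C2 (p : ℕ) : Bool := bf (Nat.blt 0 p) (bf (Nat.beq (dg 2 p) 0) (Nat.beq (dg 0 p) 0) false) false
noncomputable def C3 (p : ℕ) : Bool := bf (Nat.beq (dg 2 p) 0) (bf (Nat.beq (dg 0 p) 0) (Nat.beq (dg 3 p) 1) false) false

theorem ck0 : lvCheck F 4 Ms2 9 C0 es0 1 256 = true := by decide +kernel
theorem ck1 : lvCheck F 4 Ms2 7 C1 es1 16 256 = true := by decide +kernel
theorem ck2 : lvCheck F 4 Ms2 4 C2 es2 4 256 = true := by decide +kernel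
theorem ck3 : lvCheck F 4 Ms2 2 C3 es3 64 256 = true := by decide +kernel

theorem cnt0 : cntF C0 256 = 255 := by decide +kernel
theorem cnt1 : cntF C1 256 = 64 := by decide +kernel
theorem cnt2 : cntF C2 256 = 15 := by decide +kernel
theorem cnt3 : cntF C3 256 = 4 := by decide +kernel

theorem v_zero : toV F 4 0 = 0 := by
  funext i
  revert i
  decide +kernel

theorem v_e0 : toV F 4 1 = Pi.single 0 1 := by
  funext i
  revert i
  decide +kernel

theorem v_e1 : toV F 4 4 = Pi.single 1 1 := by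
  funext i
  revert i
  decide +kernel

theorem v_e2 : toV F 4 16 = Pi.single 2 1 := by
  funext i
  revert i
  decide +kernel

theorem v_e3 : toV F 4 64 = Pi.single 3 1 := by
  funext i
  revert i
  decide +kernel

theorem hN : 256 = F.q ^ 4 := rfl

theorem om_e0 (w : Fin 4 → K) : om (toV F 4 1) w = w 2 := by
  rw [v_e0]
  simp [om]

theorem om_e1 (w : Fin 4 → K) : om (toV F 4 4) w = w 3 := by
  rw [v_e1]
  simp [om]

theorem om_e2 (w : Fin 4 → K) : om (toV F 4 16) w = w 0 := by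
  rw [v_e2]
  simp [om]

/-- A digit from a coordinate. -/
theorem dg_of {p i val : ℕ} (hi : i < 4) (hv : val < 4) (h : toV F 4 p ⟨i, hi⟩ = F.c val) : dg i p = val :=
  F.hinj _ _ (dig_lt (lt_trans Nat.zero_lt_one F.hq) _ _) hv h

theorem col_of_fix (g : Sp) (j : Fin 4) (x : Fin 4 → K) (h : α g (Pi.single j 1) = x) (i : Fin 4) : ι g i j = x i := by
  rw [← h, actPerm_apply]
  show ι g i j = (Matrix.mulVec (ι g) (Pi.single j 1)) i
  rw [Matrix.mulVec_single_one]
  rfl

theorem ne_zero_of {g : Sp} {v p : ℕ} (hv : v < 256) (hv0 : v ≠ 0) (h : α g (toV F 4 v) = toV F 4 p) (hp : p < 256) : 0 < p := by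
  rcases Nat.eq_zero_or_pos p with rfl | h0
  · exfalso
    have h1 : α g (toV F 4 0) = toV F 4 0 := by
      rw [v_zero, actPerm_apply, Matrix.mulVec_zero]
    have h2 : toV F 4 v = toV F 4 0 := (α g).injective (h.trans h1.symm)
    exact hv0 (toV_inj F (n := 4) (a := v) (b := 0) (by rw [← hN]; exact hv) (by rw [← hN]; norm_num) h2)
  · exact h0

theorem blt_of {a b : ℕ} (h : a < b) : Nat.blt a b = true := by
  show Nat.ble (a + 1) b = true
  exact Nat.ble_eq_true_of_le h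

theorem beq_of {a b : ℕ} (h : a = b) : Nat.beq a b = true := by
  rw [h]
  exact Nat.beq_refl b

theorem hC0 : ∀ g ∈ stabL α [], ∀ p, p < 256 → α g (toV F 4 1) = toV F 4 p → C0 p = true := by
  intro g _ p hp h
  exact blt_of (ne_zero_of (by norm_num) (by norm_num) h hp)

theorem fix_om {g : Sp} {b v : ℕ} (h1 : α g (toV F 4 b) = toV F 4 b) (p : ℕ) (h : α g (toV F 4 v) = toV F 4 p) :
    om (toV F 4 b) (toV F 4 p) = om (toV F 4 b) (toV F 4 v) := by
  rw [← h]
  nth_rewrite 1 [← h1]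
  exact om_inv g _ _

theorem hC1 : ∀ g ∈ stabL α [toV F 4 1], ∀ p, p < 256 → α g (toV F 4 16) = toV F 4 p → C1 p = true := by
  intro g hg p _ h
  have h1 := fix_om ((mem_stabL_cons α).1 hg).1 p h
  rw [om_e0, om_e0] at h1
  have h2 : dg 2 p = 1 := dg_of (by norm_num) (by norm_num) (h1.trans (by decide +kernel))
  exact beq_of h2

theorem hC2 : ∀ g ∈ stabL α [toV F 4 16, toV F 4 1], ∀ p, p < 256 → α g (toV F 4 4) = toV F 4 p → C2 p = true := by
  intro g hg p hp h
  have h0 := (mem_stabL_cons α).1 hg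
  have h1 := fix_om ((mem_stabL_cons α).1 h0.2).1 p h
  rw [om_e0, om_e0] at h1
  have h2 : dg 2 p = 0 := dg_of (by norm_num) (by norm_num) (h1.trans (by decide +kernel))
  have h3 := fix_om h0.1 p h
  rw [om_e2, om_e2] at h3
  have h4 : dg 0 p = 0 := dg_of (by norm_num) (by norm_num) (h3.trans (by decide +kernel))
  have h5 := blt_of (ne_zero_of (by norm_num) (by norm_num) h hp)
  show bf (Nat.blt 0 p) (bf (Nat.beq (dg 2 p) 0) (Nat.beq (dg 0 p) 0) false) false = true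
  rw [h5, beq_of h2, beq_of h4]
  rfl

theorem hC3 : ∀ g ∈ stabL α [toV F 4 4, toV F 4 16, toV F 4 1], ∀ p, p < 256 → α g (toV F 4 64) = toV F 4 p → C3 p = true := by
  intro g hg p _ h
  have h0 := (mem_stabL_cons α).1 hg
  have h0' := (mem_stabL_cons α).1 h0.2
  have h1 := fix_om ((mem_stabL_cons α).1 h0'.2).1 p h
  rw [om_e0, om_e0] at h1
  have h2 : dg 2 p = 0 := dg_of (by norm_num) (by norm_num) (h1.trans (by decide +kernel))
  have h3 := fix_om h0'.1 p h
  rw [om_e2, om_e2] at h3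
  have h4 : dg 0 p = 0 := dg_of (by norm_num) (by norm_num) (h3.trans (by decide +kernel))
  have h5 := fix_om h0.1 p h
  rw [om_e1, om_e1] at h5
  have h6 : dg 3 p = 1 := dg_of (by norm_num) (by norm_num) (h5.trans (by decide +kernel))
  show bf (Nat.beq (dg 2 p) 0) (bf (Nat.beq (dg 0 p) 0) (Nat.beq (dg 3 p) 1) false) false = true
  rw [beq_of h2, beq_of h4, beq_of h6]
  rfl

theorem stab_all : stabL α [toV F 4 64, toV F 4 4, toV F 4 16, toV F 4 1] = ⊥ := by
  rw [eq_bot_iff]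
  intro g hg
  have h0 := (mem_stabL_cons α).1 hg
  have h1 := (mem_stabL_cons α).1 h0.2
  have h2 := (mem_stabL_cons α).1 h1.2
  have h3 := (mem_stabL_cons α).1 h2.2
  have e3 : α g (Pi.single 3 1) = Pi.single 3 1 := by rw [← v_e3]; exact h0.1
  have e1 : α g (Pi.single 1 1) = Pi.single 1 1 := by rw [← v_e1]; exact h1.1
  have e2 : α g (Pi.single 2 1) = Pi.single 2 1 := by rw [← v_e2]; exact h2.1
  have e0 : α g (Pi.single 0 1) = Pi.single 0 1 := by rw [← v_e0]; exact h3.1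
  rw [Subgroup.mem_bot]
  apply ι_eq_one
  apply Matrix.ext
  intro i j
  have e : ∀ j : Fin 4, α g (Pi.single j 1) = Pi.single j 1 := by
    intro j
    fin_cases j
    · exact e0
    · exact e1
    · exact e2
    · exact e3
  rw [Matrix.one_apply, col_of_fix g j _ (e j) i, Pi.single_apply]

/-- The chain: a subgroup containing the generators is everything, and the order of the group. -/
theorem sift (J : Subgroup Sp) (hJ : ∀ k, k < 9 → gens k ∈ J) : J = ⊤ ∧ Nat.card Sp = 255 * (64 * (15 * (4 * 1))) := by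
  have fixA' : ∀ k, k < 7 → α (gens k) (toV F 4 1) = toV F 4 1 := fun k hk => by
    rw [α_gens (by omega), fixA k hk]
  have fixB' : ∀ k, k < 4 → α (gens k) (toV F 4 16) = toV F 4 16 := fun k hk => by
    rw [α_gens (by omega), fixB k hk]
  have fixC' : ∀ k, k < 2 → α (gens k) (toV F 4 4) = toV F 4 4 := fun k hk => by
    rw [α_gens (by omega), fixC k hk]
  have L3 := level F ι (J := J) (bs := [toV F 4 4, toV F 4 16, toV F 4 1]) (Ms := Ms2) (nG := 2) (gens := gens) (C := C3)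
    (es := es3) (ib := 64) (N := 256) hN (by norm_num)
    (fun k hk => ⟨hJ k (by omega), (mem_stabL_cons α).2 ⟨fixC' k hk, (mem_stabL_cons α).2 ⟨fixB' k (by omega),
      (mem_stabL_cons α).2 ⟨fixA' k (by omega), by simp [mem_stabL]⟩⟩⟩, ι_gens (by omega)⟩) ck3 hC3
  have L2 := level F ι (J := J) (bs := [toV F 4 16, toV F 4 1]) (Ms := Ms2) (nG := 4) (gens := gens) (C := C2)
    (es := es2) (ib := 4) (N := 256) hN (by norm_num)
    (fun k hk => ⟨hJ k (by omega), (mem_stabL_cons α).2 ⟨fixB' k hk, (mem_stabL_cons α).2 ⟨fixA' k (by omega), by simp [mem_stabL]⟩⟩,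
      ι_gens (by omega)⟩) ck2 hC2
  have L1 := level F ι (J := J) (bs := [toV F 4 1]) (Ms := Ms2) (nG := 7) (gens := gens) (C := C1)
    (es := es1) (ib := 16) (N := 256) hN (by norm_num)
    (fun k hk => ⟨hJ k (by omega), (mem_stabL_cons α).2 ⟨fixA' k hk, by simp [mem_stabL]⟩, ι_gens (by omega)⟩) ck1 hC1
  have L0 := level F ι (J := J) (bs := []) (Ms := Ms2) (nG := 9) (gens := gens) (C := C0)
    (es := es0) (ib := 1) (N := 256) hN (by norm_num)
    (fun k hk => ⟨hJ k (by omega), by simp [mem_stabL], ι_gens (by omega)⟩) ck0 hC0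
  have s4 : stabL α [toV F 4 64, toV F 4 4, toV F 4 16, toV F 4 1] ≤ J := by
    rw [stab_all]
    exact bot_le
  have s3 := sift_step α s4 L3.1
  have s2 := sift_step α s3 L2.1
  have s1 := sift_step α s2 L1.1
  have s0 := sift_step α s1 L0.1
  rw [stabL_nil, top_le_iff] at s0
  refine ⟨s0, ?_⟩
  have c4 : Nat.card (stabL α [toV F 4 64, toV F 4 4, toV F 4 16, toV F 4 1]) = 1 := by
    rw [stab_all]
    exact Subgroup.card_bot
  have c3 := L3.2
  rw [c4, cnt3] at c3
  have c2 := L2.2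
  rw [c3, cnt2] at c2
  have c1 := L1.2
  rw [c2, cnt1] at c1
  have c0 := L0.2
  rw [c1, cnt0, stabL_nil, Subgroup.card_top] at c0
  exact c0

/-! ### Quadratic forms -/

/-- The quadratic form with the given coefficients of the squares, and the symplectic form as its polarisation. -/
def qf (a v : Fin 4 → K) : K := a 0 * v 0 ^ 2 + a 1 * v 1 ^ 2 + a 2 * v 2 ^ 2 + a 3 * v 3 ^ 2 + v 0 * v 2 + v 1 * v 3

noncomputable def qN (a v : ℕ) : ℕ :=
  F.add (F.add (F.add (F.add (F.add (F.mul (dg 0 a) (F.mul (dg 0 v) (dg 0 v))) (F.mul (dg 1 a) (F.mul (dg 1 v) (dg 1 v))))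
    (F.mul (dg 2 a) (F.mul (dg 2 v) (dg 2 v)))) (F.mul (dg 3 a) (F.mul (dg 3 v) (dg 3 v))))
    (F.mul (dg 0 v) (dg 2 v))) (F.mul (dg 1 v) (dg 3 v))

theorem c_qN (a v : ℕ) : F.c (qN a v) = qf (toV F 4 a) (toV F 4 v) := by
  simp only [qN, (F.hadd _ _).2, (F.hmul _ _).2, qf, pow_two]
  rfl

/-- Forms of plus type. -/
noncomputable def Ar (a : ℕ) : Bool := Nat.ble (F.add (F.mul (dg 0 a) (dg 2 a)) (F.mul (dg 1 a) (dg 3 a))) 1

/-- The point of a form. -/
noncomputable def pt (a : ℕ) : ℕ := Nat.land (Nat.shiftRight ptP (Nat.mul 12 a)) 4095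

/-- The form of a point. -/
noncomputable def rv (p : ℕ) : ℕ := Nat.land (Nat.shiftRight revP (Nat.mul 8 (Nat.sub p 1786))) 255

/-- The composition of a form with a letter. -/
noncomputable def act (j a : ℕ) : ℕ := pk F.q (fun i => qN a (mv F 4 (Ms j) (Nat.pow 4 i))) 4 0

noncomputable abbrev S : Sys Cfsg.Spor.He.Gen := G.He.sys

noncomputable abbrev C := Cfsg.Agent.Lib.TC.Data.He2058.checked

noncomputable abbrev D := C.tableData

noncomputable def Wo (j : ℕ) : List ℕ := WL.getD j []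

noncomputable def chkJ (j a : ℕ) : Bool :=
  fb (act j a) (fun b => bf (Ar b) (bf (Nat.beq (walk C.T (Wo j) (pt a)) (pt b))
    (allF (fun v => fb (mv F 4 (Ms j) v) (fun w => Nat.beq (qN a w) (qN b v))) 0 256) false) false)

noncomputable def chkA (a : ℕ) : Bool :=
  bf (Nat.blt (pt a) 2058) (bf (Nat.beq (rv (pt a)) a) (allF (fun j => chkJ j a) 0 6) false) false

noncomputable def chkAll : Bool := allF (fun a => Bool.rec true (chkA a) (Ar a)) 0 256

theorem chkAll_ok : chkAll = true := by decide +kernel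

theorem bf_spec {c a : Bool} (h : bf c a false = true) : c = true ∧ a = true := by
  cases c <;> simp_all [bf]

theorem spec {a : ℕ} (ha : a < 256) (hA : Ar a = true) : pt a < 2058 ∧ rv (pt a) = a ∧
    ∀ j, j < 6 → Ar (act j a) = true ∧ walk C.T (Wo j) (pt a) = pt (act j a) ∧
      ∀ v, v < 256 → qN a (mv F 4 (Ms j) v) = qN (act j a) v := by
  have h1 : (Bool.rec true (chkA a) (Ar a) : Bool) = true := allF_spec' _ _ chkAll_ok a ha
  rw [hA] at h1
  obtain ⟨h2, h3⟩ := bf_spec h1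
  obtain ⟨h4, h5⟩ := bf_spec h3
  refine ⟨nat_blt_true h2, Nat.eq_of_beq_eq_true h4, ?_⟩
  intro j hj
  have h6 : chkJ j a = true := allF_spec' _ _ h5 j hj
  rw [chkJ, fb_eq] at h6
  obtain ⟨h7, h8⟩ := bf_spec h6
  obtain ⟨h9, h10⟩ := bf_spec h8
  refine ⟨h7, Nat.eq_of_beq_eq_true h9, ?_⟩
  intro v hv
  have h11 := allF_spec' _ _ h10 v hv
  rw [fb_eq] at h11
  exact Nat.eq_of_beq_eq_true h11

/-- The forms of plus type. -/
def Y0 : Set ((Fin 4 → K) → K) := {f | ∃ a, a < 256 ∧ Ar a = true ∧ f = qf (toV F 4 a)}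

theorem Y0_finite : Y0.Finite := by
  refine ((Set.finite_lt_nat 256).image (fun a => qf (toV F 4 a))).subset ?_
  rintro _ ⟨a, ha, _, rfl⟩
  exact ⟨a, ha, rfl⟩

/-- The action on functions. -/
noncomputable def β : Sp →* Equiv.Perm ((Fin 4 → K) → K) where
  toFun g :=
    { toFun := fun f v => f ((α g)⁻¹ v)
      invFun := fun f v => f (α g v)
      left_inv := fun f => by
        funext v
        simp
      right_inv := fun f => by
        funext v
        simp }
  map_one' := by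
    apply Equiv.ext
    intro f
    funext v
    simp
  map_mul' a b := by
    apply Equiv.ext
    intro f
    funext v
    simp [_root_.mul_inv_rev]

theorem β_apply (g : Sp) (f : (Fin 4 → K) → K) (v : Fin 4 → K) : β g f v = f ((α g)⁻¹ v) := rfl

theorem sq_inj : ∀ x y : K, x ^ 2 = y ^ 2 → x = y := by decide +kernel

theorem qf_e0 (w : Fin 4 → K) : qf (toV F 4 1) w = w 0 ^ 2 + qf (toV F 4 0) w := by
  rw [v_e0, v_zero]
  simp [qf]
  ring

theorem qf_e1 (w : Fin 4 → K) : qf (toV F 4 4) w = w 1 ^ 2 + qf (toV F 4 0) w := by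
  rw [v_e1, v_zero]
  simp [qf]
  ring

theorem qf_e2 (w : Fin 4 → K) : qf (toV F 4 16) w = w 2 ^ 2 + qf (toV F 4 0) w := by
  rw [v_e2, v_zero]
  simp [qf]
  ring

theorem qf_e3 (w : Fin 4 → K) : qf (toV F 4 64) w = w 3 ^ 2 + qf (toV F 4 0) w := by
  rw [v_e3, v_zero]
  simp [qf]
  ring

theorem hβ : ∀ k, (∀ y ∈ Y0, β k y = y) → k = 1 := by
  intro k hk
  have hq : ∀ a, a < 256 → Ar a = true → ∀ v, qf (toV F 4 a) ((α k)⁻¹ v) = qf (toV F 4 a) v := by
    intro a ha hA v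
    have h1 := congrFun (hk _ ⟨a, ha, hA, rfl⟩) v
    exact h1
  have hAr : Ar 0 = true ∧ Ar 1 = true ∧ Ar 4 = true ∧ Ar 16 = true ∧ Ar 64 = true := by decide +kernel
  have hv : ∀ v, (α k)⁻¹ v = v := by
    intro v
    have h0 := hq 0 (by norm_num) hAr.1 v
    have h1 := hq 1 (by norm_num) hAr.2.1 v
    have h2 := hq 4 (by norm_num) hAr.2.2.1 v
    have h3 := hq 16 (by norm_num) hAr.2.2.2.1 v
    have h4 := hq 64 (by norm_num) hAr.2.2.2.2 v
    rw [qf_e0, qf_e0, h0] at h1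
    rw [qf_e1, qf_e1, h0] at h2
    rw [qf_e2, qf_e2, h0] at h3
    rw [qf_e3, qf_e3, h0] at h4
    funext i
    fin_cases i
    · exact sq_inj _ _ (add_right_cancel h1)
    · exact sq_inj _ _ (add_right_cancel h2)
    · exact sq_inj _ _ (add_right_cancel h3)
    · exact sq_inj _ _ (add_right_cancel h4)
  apply ι_eq_one
  apply Matrix.ext
  intro i j
  have e : α k (Pi.single j 1) = Pi.single j 1 := by
    have h1 := hv (Pi.single j 1)
    rw [Equiv.Perm.inv_eq_iff_eq] at h1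
    exact h1.symm
  rw [Matrix.one_apply, col_of_fix k j _ e i, Pi.single_apply]

/-- The number of a function from its values on the basis. -/
noncomputable def cd (f : (Fin 4 → K) → K) : ℕ := enc F 4 (fun i => f (Pi.single i 1))

theorem hn2058 : D.n = 2058 := rfl

/-- The point of a form. -/
noncomputable def e (f : (Fin 4 → K) → K) : Fin D.n :=
  ⟨pt (cd f) % 2058, by rw [hn2058]; exact Nat.mod_lt _ (by norm_num)⟩

theorem qf_single (a : Fin 4 → K) (i : Fin 4) : qf a (Pi.single i 1) = a i := by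
  fin_cases i <;> simp [qf]

theorem enc_toV {a : ℕ} (ha : a < 256) : enc F 4 (toV F 4 a) = a :=
  toV_inj F (n := 4) (enc_lt F 4 _) (by rw [← hN]; exact ha) (toV_enc F 4 _)

theorem cd_qf {a : ℕ} (ha : a < 256) : cd (qf (toV F 4 a)) = a := by
  unfold cd
  simp only [qf_single]
  exact enc_toV ha

theorem e_val {a : ℕ} (ha : a < 256) (hA : Ar a = true) : (e (qf (toV F 4 a))).val = pt a := by
  show pt (cd _) % 2058 = pt a
  rw [cd_qf ha, Nat.mod_eq_of_lt (spec ha hA).1]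

theorem e_inj : Set.InjOn e Y0 := by
  rintro _ ⟨a, ha, hA, rfl⟩ _ ⟨b, hb, hB, rfl⟩ h
  have h1 := congrArg Fin.val h
  rw [e_val ha hA, e_val hb hB] at h1
  have h2 : a = b := by
    rw [← (spec ha hA).2.1, ← (spec hb hB).2.1, h1]
  rw [h2]

/-- The elements of the group. -/
noncomputable def x (j : ℕ) : PresentedGroup S.rels := (evalWord S.v (Wo j))⁻¹

/-- The elements of the symplectic group. -/
noncomputable def z (j : ℕ) : Sp := (zz j)⁻¹

theorem β_z {j a : ℕ} (hj : j < 6) (ha : a < 256) (hA : Ar a = true) :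
    β (z j) (qf (toV F 4 a)) = qf (toV F 4 (act j a)) := by
  funext v
  rw [β_apply, z, map_inv, inv_inv, actPerm_apply, ι_zz hj, ← toV_enc F 4 v, ← toV_mv, ← c_qN, ← c_qN,
    ((spec ha hA).2.2 j hj).2.2 _ (enc_lt F 4 v)]

theorem hWlet : ∀ j, j < 6 → ∀ g ∈ Wo j, g < S.ng := by decide +kernel

theorem hY : ∀ j ∈ {j : ℕ | j < 6}, ∀ y ∈ Y0, β (z j) y ∈ Y0 := by
  rintro j hj _ ⟨a, ha, hA, rfl⟩
  rw [β_z hj ha hA]
  refine ⟨_, ?_, ((spec ha hA).2.2 j hj).1, rfl⟩
  exact pk_lt (lt_trans Nat.zero_lt_one F.hq) (fun _ => (F.hadd _ _).1) 4 0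

theorem act_lt (j a : ℕ) : act j a < 256 :=
  pk_lt (lt_trans Nat.zero_lt_one F.hq) (fun _ => (F.hadd _ _).1) 4 0

theorem hf : ∀ j ∈ {j : ℕ | j < 6}, ∀ y ∈ Y0, D.φ (x j) (e y) = e (β (z j) y) := by
  rintro j hj _ ⟨a, ha, hA, rfl⟩
  rw [β_z hj ha hA]
  apply D.apply_of_walk (hWlet j hj)
  rw [e_val ha hA, e_val (act_lt j a) ((spec ha hA).2.2 j hj).1]
  exact ((spec ha hA).2.2 j hj).2.1

/-- The even part. -/
noncomputable abbrev E : Subgroup (PresentedGroup S.rels) := Subgroup.closure (x '' {j : ℕ | j < 6})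

theorem exists_ψ : ∃ ψ : E →* Sp,
    (∀ j (hj : j ∈ {j : ℕ | j < 6}), ψ ⟨x j, Subgroup.subset_closure ⟨j, hj, rfl⟩⟩ = z j) ∧
      ∀ g : E, ∀ y ∈ Y0, β (ψ g) y ∈ Y0 ∧ D.φ g.1 (e y) = e (β (ψ g) y) :=
  exists_hom_of_intertwine_on D.φ β Y0 Y0_finite hβ e e_inj {j : ℕ | j < 6} x z hY hf

/-- The odd element. -/
noncomputable def s0 : PresentedGroup S.rels := (evalWord S.v [0, 1, 0, 1])⁻¹

theorem hs_let : ∀ g ∈ [0, 1, 0, 1], g < S.ng := by decide +kernel

theorem qf_lin (a b c : Fin 4 → K) (w : K) (h : ∀ i, c i = a i + w * (b i - a i)) (v : Fin 4 → K) :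
    qf c v = qf a v + w * (qf b v - qf a v) := by
  simp only [qf, h]
  ring

theorem s0_img {k : Sp} (h : ∀ y ∈ Y0, β k y ∈ Y0 ∧ D.φ s0 (e y) = e (β k y)) {a : ℕ} (ha : a < 256) (hA : Ar a = true) :
    β k (qf (toV F 4 a)) = qf (toV F 4 (rv (walk C.T [0, 1, 0, 1] (pt a)))) := by
  obtain ⟨h1, h2⟩ := h _ ⟨a, ha, hA, rfl⟩
  obtain ⟨b, hb, hB, h3⟩ := h1
  have h4 : walk D.T [0, 1, 0, 1] (pt a) = pt b := by
    rw [h3] at h2
    have h5 := congrArg Fin.val h2
    rw [e_val hb hB] at h5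
    rw [← h5, ← e_val ha hA]
    exact (D.walk_eq hs_let _).symm
  have h6 : rv (walk C.T [0, 1, 0, 1] (pt a)) = b := by
    have h7 : walk C.T [0, 1, 0, 1] (pt a) = pt b := h4
    rw [h7]
    exact (spec hb hB).2.1
  rw [h3, h6]

theorem s0_not_mem : s0 ∉ E := by
  intro hs
  obtain ⟨ψ, _, h⟩ := exists_ψ
  have h0 := h ⟨s0, hs⟩
  have hAr : Ar 0 = true ∧ Ar 64 = true ∧ Ar 128 = true := by decide +kernel
  have e0 := s0_img (k := ψ ⟨s0, hs⟩) h0 (a := 0) (by norm_num) hAr.1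
  have e1 := s0_img (k := ψ ⟨s0, hs⟩) h0 (a := 64) (by norm_num) hAr.2.1
  have e2 := s0_img (k := ψ ⟨s0, hs⟩) h0 (a := 128) (by norm_num) hAr.2.2
  have v0 : rv (walk C.T [0, 1, 0, 1] (pt 0)) = 12 := by decide +kernel
  have v1 : rv (walk C.T [0, 1, 0, 1] (pt 64)) = 200 := by decide +kernel
  have v2 : rv (walk C.T [0, 1, 0, 1] (pt 128)) = 128 := by decide +kernel
  rw [v0] at e0
  rw [v1] at e1
  rw [v2] at e2
  have hl : ∀ i, toV F 4 128 i = toV F 4 0 i + F.c 2 * (toV F 4 64 i - toV F 4 0 i) := by decide +kernel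
  have h3 := qf_lin _ _ _ (F.c 2) hl
  have h5 : ∀ v, β (ψ ⟨s0, hs⟩) (qf (toV F 4 128)) v = β (ψ ⟨s0, hs⟩) (qf (toV F 4 0)) v +
      F.c 2 * (β (ψ ⟨s0, hs⟩) (qf (toV F 4 64)) v - β (ψ ⟨s0, hs⟩) (qf (toV F 4 0)) v) := fun v => h3 _
  have h6 := h5 (Pi.single 1 1)
  rw [e0, e1, e2] at h6
  simp only [qf_single] at h6
  revert h6
  decide +kernel

/-! ### The groups -/

/-- The generators of the stabiliser. -/
abbrev subs : Set (FreeGroup Cfsg.Spor.He.Gen) :=
  {Cfsg.Spor.He.a, Cfsg.Spor.He.c, Cfsg.Spor.He.d, Cfsg.Spor.He.e, Cfsg.Spor.He.f,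
    (Cfsg.Spor.He.a * Cfsg.Spor.He.b) ^ 2, (Cfsg.Spor.He.b * Cfsg.Spor.He.c * Cfsg.Spor.He.d * Cfsg.Spor.He.e) ^ 7}

/-- The stabiliser. -/
noncomputable abbrev H : Subgroup (PresentedGroup S.rels) := Sys.subOf S subs

theorem card_H : Nat.card H = 1958400 := by
  have h1 := Subgroup.card_mul_index H
  have h2 : H.index = C.n := C.index_eq
  rw [h2, Data.HeMain.faith.2] at h1
  exact Nat.eq_of_mul_eq_mul_right C.hn h1

theorem mem_W : ∀ j, j < 6 → Wo j ∈ C.A.W := by decide +kernel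

theorem mem_W0 : [0, 1, 0, 1] ∈ C.A.W := by decide +kernel

theorem x_mem {j : ℕ} (hj : j < 6) : x j ∈ H := H.inv_mem (Sys.eval_mem_subOf (C.A.h2 _ (mem_W j hj)))

theorem s0_mem : s0 ∈ H := H.inv_mem (Sys.eval_mem_subOf (C.A.h2 _ mem_W0))

theorem hEH : E ≤ H := by
  apply (Subgroup.closure_le _).2
  rintro _ ⟨j, hj, rfl⟩
  exact x_mem hj

theorem main : ∃ (N : Subgroup H) (K' : Type) (_ : Field K') (_ : Fintype K'), N.Normal ∧ N.index = 2 ∧
    Fintype.card K' = 4 ∧ Nonempty (N ≃* Matrix.symplecticGroup (Fin 2) K') := by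
  obtain ⟨ψ, hψ, _⟩ := exists_ψ
  have hfinH : Finite H := Nat.finite_of_card_ne_zero (by rw [card_H]; norm_num)
  have hz : ∀ j, j < 6 → zz j ∈ ψ.range := by
    intro j hj
    have h1 : z j ∈ ψ.range := ⟨_, hψ j hj⟩
    have h2 := ψ.range.inv_mem h1
    rwa [z, inv_inv] at h2
  have hword : ∀ w : List ℕ, (∀ g ∈ w, g < 6) → evalWord zz w ∈ ψ.range := by
    intro w hw
    induction w with
    | nil => exact Subgroup.one_mem _
    | cons g w ih =>
      rw [evalWord_cons]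
      exact Subgroup.mul_mem _ (hz g (hw g (by simp))) (ih (fun a ha => hw a (by simp [ha])))
  have hs := sift ψ.range (fun k hk => hword _ (hwords k hk).2)
  have hsurj : Function.Surjective ψ := MonoidHom.range_eq_top.1 hs.1
  have hcardSp : Nat.card Sp = 979200 := hs.2
  have hfinE : Finite E := Finite.of_injective (Subgroup.inclusion hEH) (Subgroup.inclusion_injective hEH)
  have hfinSp : Finite Sp := Nat.finite_of_card_ne_zero (by rw [hcardSp]; norm_num)
  have hle : Nat.card Sp ≤ Nat.card E := Nat.card_le_card_of_surjective ψ hsurj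
  have hN : Nat.card (E.subgroupOf H) = Nat.card E := Nat.card_congr (Subgroup.subgroupOfEquivOfLe hEH).toEquiv
  have hm := (E.subgroupOf H).card_mul_index
  rw [hN, card_H] at hm
  have hi1 : (E.subgroupOf H).index ≠ 1 := by
    intro h
    have h1 := Subgroup.index_eq_one.1 h
    have h2 : (⟨s0, s0_mem⟩ : H) ∈ E.subgroupOf H := by
      rw [h1]
      exact Subgroup.mem_top _
    exact s0_not_mem (Subgroup.mem_subgroupOf.1 h2)
  have hi0 : (E.subgroupOf H).index ≠ 0 := by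
    intro h
    rw [h] at hm
    omega
  have hidx : (E.subgroupOf H).index = 2 := by
    rw [hcardSp] at hle
    have h1 : 2 ≤ (E.subgroupOf H).index := by omega
    by_contra h2
    have h3 : 3 ≤ (E.subgroupOf H).index := by omega
    have h4 : Nat.card E * 3 ≤ Nat.card E * (E.subgroupOf H).index := Nat.mul_le_mul_left _ h3
    omega
  have hcE : Nat.card E = 979200 := by
    rw [hidx] at hm
    omega
  have hbij : Function.Bijective ψ := by
    apply hsurj.bijective_of_nat_card_le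
    rw [hcE, hcardSp]
  refine ⟨E.subgroupOf H, K, inferInstance, inferInstance, ?_, hidx, Cfsg.Agent.Lib.Classical.FF4.card_F4, ?_⟩
  · exact Subgroup.normal_of_index_eq_two hidx
  · exact ⟨(Subgroup.subgroupOfEquivOfLe hEH).trans (MulEquiv.ofBijective ψ hbij)⟩

end Cfsg.Agent.Lib.Iso.Sp44
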