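/-
The subgroup of the Fischer group Fi₂₂ generated by a, c, …, i and (abcdeh)⁵ is a non-split double cover of the projective
special unitary group of dimension six over the field with four elements: it acts on 693 points of the table as that group
acts on the isotropic lines.
-/
import Cfsg.Agent.Lib.Iso.U62Lev
import Cfsg.Agent.Lib.TC.Inter
import Cfsg.Agent.Lib.TC.InterOn
import Cfsg.Agent.Lib.TC.Data.Fi22Main
import Cfsg.Agent.Lib.Classical.UnitaryCenter
import Cfsg.Agent.S0280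
import Cfsg.Agent.S0283

set_option autoImplicit false

namespace Cfsg.Agent.Lib.Iso.U62

open Cfsg.Agent.Lib.TC Cfsg.Agent.Lib.TC.Fast Cfsg.Agent.Lib.Mat Cfsg.Agent.Lib.Iso.U62Data
open Matrix

abbrev V := Fin 6 → K

abbrev M6 := Matrix (Fin 6) (Fin 6) K

abbrev SU6 := Cfsg.SU 6 K 2

abbrev PS := Cfsg.PSU 6 K 2

theorem hcardK : Fintype.card K = 2 ^ 2 := Cfsg.Agent.Lib.Classical.FF4.card_F4

/-! ### The form -/

theorem toM_trP (A : ℕ) : toM F 6 (trP A) = (toM F 6 A)ᵀ := by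
  have hq : 0 < F.q := lt_trans Nat.zero_lt_one F.hq
  apply Matrix.ext
  intro i j
  show F.c (dig F.q (6 * (i : ℕ) + j) (pk F.q _ 36 0)) = F.c (ent F 6 A j i)
  have h1 : 6 * (i : ℕ) + j < 36 := by omega
  rw [dig_pk hq (f := fun idx => ent F 6 A (Nat.mod idx 6) (Nat.div idx 6)) (fun _ => dig_lt hq _ _) h1, Nat.zero_add]
  have e1 : Nat.div (6 * (i : ℕ) + j) 6 = i := by
    show (6 * (i : ℕ) + j) / 6 = i
    omega
  have e2 : Nat.mod (6 * (i : ℕ) + j) 6 = j := by
    show (6 * (i : ℕ) + j) % 6 = j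
    omega
  simp only [e1, e2]

/-- The squaring map. -/
def fr : K →+* K where
  toFun x := x ^ 2
  map_one' := by decide +kernel
  map_mul' := by decide +kernel
  map_zero' := by decide +kernel
  map_add' := by decide +kernel

theorem toM_conjP (A : ℕ) : toM F 6 (conjP A) = (toM F 6 A).map fr := by
  have hq : 0 < F.q := lt_trans Nat.zero_lt_one F.hq
  apply Matrix.ext
  intro i j
  show F.c (dig F.q (6 * (i : ℕ) + j) (pk F.q _ 36 0)) = (F.c (ent F 6 A i j)) ^ 2
  have h1 : 6 * (i : ℕ) + j < 36 := by omega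
  rw [dig_pk hq (f := fun idx => F.mul (dig F.q idx A) (dig F.q idx A)) (fun _ => (F.hmul _ _).1) h1, Nat.zero_add,
    (F.hmul _ _).2, pow_two]
  rfl

theorem herm_eq (u v : V) : Cfsg.hermForm 6 K 2 u v = u ⬝ᵥ (fr ∘ v) := rfl

theorem fr_mulVec (A : M6) (v : V) : fr ∘ (A *ᵥ v) = A.map fr *ᵥ (fr ∘ v) := by
  funext i
  exact RingHom.map_mulVec fr A v i

theorem herm_pres {j : ℕ} (hj : j < 9) (u v : V) :
    Cfsg.hermForm 6 K 2 (toM F 6 (B j) *ᵥ u) (toM F 6 (B j) *ᵥ v) = Cfsg.hermForm 6 K 2 u v := by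
  have h1 : (toM F 6 (B j))ᵀ * (toM F 6 (B j)).map fr = 1 := by
    rw [← toM_trP, ← toM_conjP, ← toM_mm, (hB j hj).2, toM_oneP]
  have h3 : ∀ (X : M6) (u w : V), (X *ᵥ u) ⬝ᵥ w = u ⬝ᵥ (Xᵀ *ᵥ w) := by
    intro X u w
    rw [Matrix.dotProduct_mulVec, Matrix.vecMul_transpose]
  rw [herm_eq, herm_eq, fr_mulVec, h3, Matrix.mulVec_mulVec, h1, Matrix.one_mulVec]

theorem B_sq {j : ℕ} (hj : j < 9) : toM F 6 (B j) * toM F 6 (B j) = 1 := by
  rw [← toM_mm, (hB j hj).1, toM_oneP]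

theorem det_B {j : ℕ} (hj : j < 9) : (toM F 6 (B j)).det = 1 := by
  apply sq_one
  rw [← Matrix.det_mul, B_sq hj, Matrix.det_one]

/-- The generators in the unitary group. -/
noncomputable def sG (j : ℕ) : SU6 :=
  if h : j < 9 then ⟨⟨toM F 6 (B j), det_B h⟩, fun u v => herm_pres h u v⟩ else 1

noncomputable def ι : SU6 →* M6 where
  toFun g := (g.1 : Matrix.SpecialLinearGroup (Fin 6) K).1
  map_one' := rfl
  map_mul' _ _ := rfl

theorem ι_inj {a b : SU6} (h : ι a = ι b) : a = b := Subtype.ext (Subtype.ext h)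

theorem ι_sG {j : ℕ} (hj : j < 9) : ι (sG j) = toM F 6 (B j) := by
  show ((sG j).1 : Matrix.SpecialLinearGroup (Fin 6) K).1 = _
  rw [sG, dif_pos hj]

noncomputable abbrev α := actPerm (Γ := SU6) ι

theorem α_smul (g : SU6) (c : K) (u : V) : α g (c • u) = c • α g u := by
  rw [actPerm_apply, actPerm_apply, Matrix.mulVec_smul]

theorem α_sG {j : ℕ} (hj : j < 9) (v : ℕ) : α (sG j) (toV F 6 v) = toV F 6 (mv F 6 (B j) v) := by
  rw [toV_mv, actPerm_apply, ι_sG hj]

/-! ### Sets closed under scalars -/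

/-- Sets of vectors closed under scalars. -/
abbrev Y := {S : Set V // ∀ c : K, c ≠ 0 → ∀ x ∈ S, c • x ∈ S}

/-- The image of such a set. -/
def act (g : SU6) (S : Y) : Y :=
  ⟨α g '' S.1, by
    rintro c hc _ ⟨x, hx, rfl⟩
    exact ⟨c • x, S.2 c hc x hx, α_smul g c x⟩⟩

theorem act_one (S : Y) : act 1 S = S := by
  apply Subtype.ext
  show α 1 '' S.1 = S.1
  simp

theorem act_mul (a b : SU6) (S : Y) : act (a * b) S = act a (act b S) := by
  apply Subtype.ext
  show α (a * b) '' S.1 = α a '' (α b '' S.1)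
  rw [Set.image_image, map_mul]
  rfl

/-- The action of the unitary group. -/
noncomputable def βt : SU6 →* Equiv.Perm Y where
  toFun g :=
    { toFun := act g
      invFun := act g⁻¹
      left_inv := fun S => by rw [← act_mul, inv_mul_cancel, act_one]
      right_inv := fun S => by rw [← act_mul, mul_inv_cancel, act_one] }
  map_one' := by
    apply Equiv.ext
    exact act_one
  map_mul' a b := by
    apply Equiv.ext
    exact act_mul a b

theorem βt_apply (g : SU6) (S : Y) : βt g S = act g S := rfl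

theorem center_act (g : SU6) (hg : g ∈ Subgroup.center SU6) (S : Y) : act g S = S := by
  obtain ⟨c, hc⟩ := Cfsg.Agent.Lib.Classical.center_scalar hcardK g hg
  have hc' : ι g = c • (1 : M6) := by
    rcases hc with hc | hc
    · exact hc
    · omega
  have hc0 : c ≠ 0 := by
    rintro rfl
    have h1 : (ι g).det = 1 := (g.1 : Matrix.SpecialLinearGroup (Fin 6) K).2
    rw [hc', zero_smul, Matrix.det_zero] at h1
    exact zero_ne_one h1
  have hm : ∀ x, α g x = c • x := by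
    intro x
    rw [actPerm_apply, hc', Matrix.smul_mulVec, Matrix.one_mulVec]
  apply Subtype.ext
  show α g '' S.1 = S.1
  ext y
  constructor
  · rintro ⟨x, hx, rfl⟩
    rw [hm]
    exact S.2 c hc0 x hx
  · intro hy
    refine ⟨c⁻¹ • y, S.2 _ (inv_ne_zero hc0) y hy, ?_⟩
    rw [hm, smul_smul, mul_inv_cancel₀ hc0, one_smul]

/-- The action of the projective group. -/
noncomputable def β : PS →* Equiv.Perm Y :=
  QuotientGroup.lift _ βt (fun g hg => Equiv.ext (center_act g hg))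

noncomputable abbrev mkP : SU6 →* PS := QuotientGroup.mk' _

theorem β_mk (g : SU6) (S : Y) : β (mkP g) S = act g S := rfl

/-- The line through a vector. -/
def line (u : V) : Y :=
  ⟨{w | ∃ c : K, c ≠ 0 ∧ w = c • u}, by
    rintro c hc _ ⟨d, hd, rfl⟩
    exact ⟨c * d, mul_ne_zero hc hd, smul_smul _ _ _⟩⟩

/-- The lines. -/
noncomputable def τ (n : ℕ) : Y := line (vv n)

theorem line_map (g : SU6) {u w : V} {d : K} (hd : d ≠ 0) (h : α g u = d • w) : act g (line u) = line w := by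
  apply Subtype.ext
  show α g '' _ = _
  ext y
  constructor
  · rintro ⟨x, ⟨c, hc, rfl⟩, rfl⟩
    exact ⟨c * d, mul_ne_zero hc hd, by rw [α_smul, h, smul_smul]⟩
  · rintro ⟨c, hc, rfl⟩
    refine ⟨(c * d⁻¹) • u, ⟨c * d⁻¹, mul_ne_zero hc (inv_ne_zero hd), rfl⟩, ?_⟩
    rw [α_smul, h, smul_smul, mul_assoc, inv_mul_cancel₀ hd, mul_one]

theorem bf_spec {c a : Bool} (h : bf c a false = true) : c = true ∧ a = true := by
  cases c <;> simp_all [bf]

theorem hq0 : 0 < F.q := lt_trans Nat.zero_lt_one F.hq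

theorem toV_scal (c p : ℕ) : toV F 6 (scal c p) = F.c c • toV F 6 p := by
  funext i
  show F.c (dig F.q i (pk F.q _ 6 0)) = F.c c * F.c (dig F.q i p)
  rw [dig_pk hq0 (fun _ => (F.hmul _ _).1) i.2, Nat.zero_add, (F.hmul _ _).2]

theorem c_ne {d : ℕ} (hd : d < 4) (h0 : d ≠ 0) : F.c d ≠ 0 := by
  intro h
  exact h0 (F.hinj d 0 hd (by show 0 < 4; norm_num) (h.trans F.h0.symm))

theorem spec_L {n g : ℕ} (hn : n < 693) (hg : g < 9) : tO n g < 693 ∧
    ∃ d : ℕ, d < 4 ∧ d ≠ 0 ∧ toV F 6 (mv F 6 (B g) (rp n)) = F.c d • vv (tO n g) := by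
  have h1 := allF_spec' _ _ chkL_ok n hn
  have h2 := allF_spec' _ _ h1 g hg
  obtain ⟨h3, h4⟩ := bf_spec h2
  refine ⟨nat_blt_true h3, ?_⟩
  rw [fb_eq] at h4
  generalize mv F 6 (B g) (rp n) = w at h4 ⊢
  generalize tO n g = m at h4 ⊢
  unfold isMul at h4
  unfold bf at h4
  cases h5 : Nat.beq w (rp m) with
  | true =>
    refine ⟨1, by norm_num, by norm_num, ?_⟩
    rw [Nat.eq_of_beq_eq_true h5, F.h1, one_smul]
    rfl
  | false =>
    rw [h5] at h4
    cases h6 : Nat.beq w (scal 2 (rp m)) with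
    | true =>
      refine ⟨2, by norm_num, by norm_num, ?_⟩
      rw [Nat.eq_of_beq_eq_true h6, toV_scal]
      rfl
    | false =>
      rw [h6] at h4
      refine ⟨3, by norm_num, by norm_num, ?_⟩
      rw [Nat.eq_of_beq_eq_true h4, toV_scal]
      rfl

theorem act_τ {g n : ℕ} (hg : g < 9) (hn : n < 693) : act (sG g) (τ n) = τ (tO n g) := by
  obtain ⟨_, d, hd, hd0, h⟩ := spec_L hn hg
  refine line_map _ (c_ne hd hd0) ?_
  rw [vv, α_sG hg, h]

theorem hN6 : 4096 = F.q ^ 6 := by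
  show 4096 = 4 ^ 6
  norm_num

theorem rp_lt (n : ℕ) : rp n < F.q ^ 6 := by
  rw [← hN6]
  have h : rp n ≤ 4095 := Nat.and_le_right
  omega

theorem scal_lt (c p : ℕ) : scal c p < F.q ^ 6 :=
  pk_lt hq0 (fun _ => (F.hmul _ _).1) 6 0

theorem gM_eq (a b : ℕ) (hb : b < 3) : gM (3 * a + b) = scal (b + 1) (rp a) := by
  show scal (Nat.add (Nat.mod (3 * a + b) 3) 1) (rp (Nat.div (3 * a + b) 3)) = _
  have e1 : Nat.mod (3 * a + b) 3 = b := by
    show (3 * a + b) % 3 = b
    omega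
  have e2 : Nat.div (3 * a + b) 3 = a := by
    show (3 * a + b) / 3 = a
    omega
  rw [e1, e2]

theorem code4 (t : K) : F.code t < 4 ∧ F.c (F.code t) = t := F.hcode t

theorem τ_inj {n m : ℕ} (hn : n < 693) (hm : m < 693) (h : τ n = τ m) : n = m := by
  have h1 : vv n ∈ (τ m).1 := by
    rw [← h]
    exact ⟨1, one_ne_zero, (one_smul _ _).symm⟩
  obtain ⟨c, hc, h2⟩ := h1
  obtain ⟨hc1, hc2⟩ := code4 c
  have hc0 : F.code c ≠ 0 := by
    intro h0
    rw [h0, F.h0] at hc2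
    exact hc hc2.symm
  have e1 : scal (F.code c) (rp m) = rp n :=
    toV_inj F (scal_lt _ _) (rp_lt _) (by rw [toV_scal, hc2]; exact h2.symm)
  have e2 : scal 1 (rp n) = rp n :=
    toV_inj F (scal_lt _ _) (rp_lt _) (by rw [toV_scal, F.h1, one_smul])
  have e3 : gM (3 * n + 0) = gM (3 * m + (F.code c - 1)) := by
    rw [gM_eq _ _ (by norm_num), gM_eq _ _ (by omega), Nat.sub_add_cancel (by omega), e1, Nat.zero_add, e2]
  have h3 := (uniqF_spec gM 2079 0 chkU_ok).2 _ _ (by omega) (by omega) e3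
  omega

/-- The lines as a set. -/
noncomputable def Y0 : Set Y := τ '' {n | n < 693}

theorem Y0_finite : Y0.Finite := (Set.finite_lt_nat 693).image _

/-! ### Faithfulness -/

theorem scalar_of_lines {n : ℕ} (A P Q : Matrix (Fin n) (Fin n) K) (hQP : Q * P = 1) (a : Fin n → K) (ha : ∀ i, a i ≠ 0)
    (c : K) (hc : A *ᵥ (P *ᵥ a) = c • (P *ᵥ a))
    (hcols : ∀ j, ∃ d : K, A *ᵥ (fun i => P i j) = d • (fun i => P i j)) : A = c • 1 := by
  choose d hd using hcols
  have h1 : A * P = P * Matrix.diagonal d := by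
    apply Matrix.ext
    intro i j
    have h2 := congrFun (hd j) i
    rw [Matrix.mul_diagonal, Matrix.mul_apply]
    have h3 : (A *ᵥ (fun i => P i j)) i = ∑ k, A i k * P k j := rfl
    rw [← h3, h2]
    simp [mul_comm]
  have h2 : P *ᵥ (Matrix.diagonal d *ᵥ a) = P *ᵥ (c • a) := by
    rw [Matrix.mulVec_mulVec, ← h1, ← Matrix.mulVec_mulVec, hc, Matrix.mulVec_smul]
  have h4' : ∀ x, Q *ᵥ (P *ᵥ x) = x := fun x => by
    rw [Matrix.mulVec_mulVec, hQP, Matrix.one_mulVec]
  have h3 : Matrix.diagonal d *ᵥ a = c • a := by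
    rw [← h4' (Matrix.diagonal d *ᵥ a), h2, h4']
  have h4 : ∀ i, d i = c := by
    intro i
    have h5 := congrFun h3 i
    rw [Matrix.mulVec_diagonal] at h5
    exact mul_right_cancel₀ (ha i) h5
  have h5 : A * P = c • P := by
    rw [h1]
    apply Matrix.ext
    intro i j
    rw [Matrix.mul_diagonal, h4, Matrix.smul_apply, smul_eq_mul, mul_comm]
  have h6 : P * Q = 1 := mul_eq_one_comm.1 hQP
  calc A = A * (P * Q) := by rw [h6, mul_one]
    _ = (A * P) * Q := by rw [mul_assoc]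
    _ = c • 1 := by rw [h5, Matrix.smul_mul, h6]

/-- A vector of a line fixed by an element. -/
theorem eig_of_fix (k : SU6) {n : ℕ} (h : act k (τ n) = τ n) : ∃ d : K, ι k *ᵥ vv n = d • vv n := by
  have h1 : α k (vv n) ∈ (act k (τ n)).1 := ⟨vv n, ⟨1, one_ne_zero, (one_smul _ _).symm⟩, rfl⟩
  rw [h] at h1
  obtain ⟨d, _, h2⟩ := h1
  exact ⟨d, h2⟩

theorem hβ : ∀ k, (∀ y ∈ Y0, β k y = y) → k = 1 := by
  intro k hk
  obtain ⟨g, rfl⟩ := QuotientGroup.mk'_surjective _ k
  have hfix : ∀ n, n < 693 → ∃ d : K, ι g *ᵥ vv n = d • vv n := fun n hn => eig_of_fix g (hk _ ⟨n, hn, rfl⟩)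
  obtain ⟨c, hc⟩ := hfix uN huN
  have hu : toM F 6 Pp *ᵥ toV F 6 aN = vv uN := by
    rw [← toV_mv, hPa]
    rfl
  have h1 : ι g = c • 1 := by
    refine scalar_of_lines _ (toM F 6 Pp) (toM F 6 Qp) ?_ (toV F 6 aN) ha0 c ?_ ?_
    · rw [← toM_mm, hQPm, toM_oneP]
    · rw [hu]
      exact hc
    · intro j
      obtain ⟨d, hd⟩ := hfix (Bn j) (hBlt j j.2)
      refine ⟨d, ?_⟩
      have h2 : (fun i => toM F 6 Pp i j) = vv (Bn j) := funext fun i => hPcol j i
      rw [h2]
      exact hd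
  apply (QuotientGroup.eq_one_iff _).2
  rw [Subgroup.mem_center_iff]
  intro h
  apply ι_inj
  rw [map_mul, map_mul, h1, Matrix.smul_mul, Matrix.mul_smul, one_mul, mul_one]

/-! ### The points -/

noncomputable abbrev S : Sys Cfsg.Spor.Fi22.Gen := G.Fi22.sys

noncomputable abbrev D := C.tableData

theorem hn3510 : D.n = 3510 := rfl

open _root_.Classical in
/-- The point of a line. -/
noncomputable def e (y : Y) : Fin D.n :=
  if h : ∃ n, n < 693 ∧ y = τ n then
    ⟨h.choose + 2817, by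
      rw [hn3510]
      have := h.choose_spec.1
      omega⟩
  else ⟨0, by rw [hn3510]; norm_num⟩

theorem e_τ {n : ℕ} (hn : n < 693) : (e (τ n)).val = n + 2817 := by
  have h : ∃ m, m < 693 ∧ τ n = τ m := ⟨n, hn, rfl⟩
  rw [e, dif_pos h]
  show h.choose + 2817 = n + 2817
  have hc := h.choose_spec
  generalize h.choose = m at hc ⊢
  have := τ_inj hn hc.1 hc.2
  omega

theorem e_inj : Set.InjOn e Y0 := by
  rintro _ ⟨a, ha, rfl⟩ _ ⟨b, hb, rfl⟩ h
  have h1 := congrArg Fin.val h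
  rw [e_τ ha, e_τ hb] at h1
  have h2 : a = b := by omega
  rw [h2]

/-- The generators of the subgroup. -/
noncomputable def x (j : ℕ) : PresentedGroup S.rels := (evalWord S.v (Wo j))⁻¹

/-- Their images. -/
noncomputable def z (j : ℕ) : PS := mkP (sG j)

theorem β_z {j n : ℕ} (hj : j < 9) (hn : n < 693) : β (z j) (τ n) = τ (tO n j) := act_τ hj hn

theorem hY : ∀ j ∈ {j : ℕ | j < 9}, ∀ y ∈ Y0, β (z j) y ∈ Y0 := by
  rintro j hj _ ⟨n, hn, rfl⟩
  rw [β_z hj hn]
  exact ⟨_, (spec_L hn hj).1, rfl⟩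

theorem hWlet : ∀ j, j < 9 → ∀ g ∈ Wo j, g < S.ng := by decide +kernel

theorem hT_tO {n g : ℕ} (hn : n < 693) (hg : g < 9) : walk C.T (Wo g) (n + 2817) = tO n g + 2817 := by
  have h1 := allF_spec' _ _ chkT_ok n hn
  have h2 := allF_spec' _ _ h1 g hg
  exact Nat.eq_of_beq_eq_true h2

theorem hf : ∀ j ∈ {j : ℕ | j < 9}, ∀ y ∈ Y0, D.φ (x j) (e y) = e (β (z j) y) := by
  rintro j hj _ ⟨n, hn, rfl⟩
  have hj' : j < 9 := hj
  rw [β_z hj' hn]
  apply D.apply_of_walk (hWlet j hj')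
  rw [e_τ hn, e_τ (spec_L hn hj').1]
  exact hT_tO hn hj'

/-- The subgroup. -/
noncomputable abbrev E : Subgroup (PresentedGroup S.rels) := Subgroup.closure (x '' {j : ℕ | j < 9})

theorem exists_ψ : ∃ ψ : E →* PS,
    (∀ j (hj : j ∈ {j : ℕ | j < 9}), ψ ⟨x j, Subgroup.subset_closure ⟨j, hj, rfl⟩⟩ = z j) ∧
      ∀ g : E, ∀ y ∈ Y0, β (ψ g) y ∈ Y0 ∧ D.φ g.1 (e y) = e (β (ψ g) y) :=
  exists_hom_of_intertwine_on D.φ β Y0 Y0_finite hβ e e_inj {j : ℕ | j < 9} x z hY hf

/-! ### The subgroup -/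

/-- The generators of the stabiliser. -/
abbrev subs : Set (FreeGroup Cfsg.Spor.Fi22.Gen) :=
  {Cfsg.Spor.Fi22.a, Cfsg.Spor.Fi22.c, Cfsg.Spor.Fi22.d, Cfsg.Spor.Fi22.e, Cfsg.Spor.Fi22.f, Cfsg.Spor.Fi22.g, Cfsg.Spor.Fi22.h,
    Cfsg.Spor.Fi22.i, (Cfsg.Spor.Fi22.a * Cfsg.Spor.Fi22.b * Cfsg.Spor.Fi22.c * Cfsg.Spor.Fi22.d * Cfsg.Spor.Fi22.e * Cfsg.Spor.Fi22.h) ^ 5}

/-- The stabiliser. -/
noncomputable abbrev H : Subgroup (PresentedGroup S.rels) := Sys.subOf S subs

theorem mem_W : ∀ j, j < 9 → Wo j ∈ C.A.W := by decide +kernel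

theorem all_W : ∀ w ∈ C.A.W, ∃ j, j < 9 ∧ w = Wo j := by decide +kernel

theorem hEH : E ≤ H := by
  apply (Subgroup.closure_le _).2
  rintro _ ⟨j, hj, rfl⟩
  exact H.inv_mem (Sys.eval_mem_subOf (C.A.h2 _ (mem_W j hj)))

theorem hHE : H = E := by
  apply le_antisymm _ hEH
  rw [Subgroup.map_le_iff_le_comap, Subgroup.closure_le]
  intro s hs
  obtain ⟨j, hj, hw⟩ := all_W _ (C.A.h1 s hs)
  show PresentedGroup.mk S.rels s ∈ E
  rw [← S.evalWord_encW, hw]
  have h1 : x j ∈ E := Subgroup.subset_closure ⟨j, hj, rfl⟩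
  have h2 := E.inv_mem h1
  rwa [x, inv_inv] at h2

theorem card_H : Nat.card H = 18393661440 := by
  have h1 := Subgroup.card_mul_index H
  have h2 : H.index = C.n := C.index_eq
  rw [h2, Cfsg.Agent.Lib.TC.Data.Fi22Main.faith.2] at h1
  exact Nat.eq_of_mul_eq_mul_right C.hn h1

theorem card_E : Nat.card E = 18393661440 := by
  rw [← hHE]
  exact card_H

theorem card_PS : Nat.card PS = 9196830720 := by
  have h := Cfsg.Agent.S0280.result (F := K) (q := 2) hcardK 6 (by norm_num)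
  have h2 : (2 : ℕ) ^ (6 * (6 - 1) / 2) * ∏ i ∈ Finset.range 6, (if Even i then 2 ^ (i + 1) + 1 else 2 ^ (i + 1) - 1) =
      82771476480 := by
    decide +kernel
  rw [h2] at h
  have h3 : Nat.gcd 6 (2 + 1) = 3 := by norm_num
  rw [h3] at h
  have h4 : 3 * ((2 + 1) * Nat.card PS) = 82771476480 := h
  omega

instance simplePS : IsSimpleGroup PS := Cfsg.Agent.S0283.result hcardK 6 (by norm_num) (by norm_num)

/-! ### The order -/

/-- An element of the group acting on the lines as a permutation. -/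
def Re (a : Equiv.Perm (Fin tb.n)) (k : PS) : Prop := ∀ n : Fin tb.n, β k (τ n.val) = τ (a n).val

theorem Re_letter {g : ℕ} (hg : g < 9) : Re (tb.perm g) (z g) := by
  intro n
  rw [tb.perm_val hg]
  exact β_z hg n.2

theorem Re_word (w : List ℕ) (hw : ∀ g ∈ w, g < 9) : Re (evalWord tb.perm w) (evalWord z w) := by
  induction w with
  | nil =>
    intro n
    show β 1 _ = τ ((1 : Equiv.Perm (Fin tb.n)) n).val
    rw [map_one]
    rfl
  | cons g w ih =>
    intro n
    rw [evalWord_cons, evalWord_cons, map_mul, Equiv.Perm.mul_apply, Equiv.Perm.mul_apply,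
      ih (fun x hx => hw x (by simp [hx])) n]
    exact Re_letter (hw g (by simp)) _

theorem exists_Re (L : Subgroup PS) (hL : ∀ g, g < 9 → z g ∈ L) : ∀ a ∈ tb.gp SW, ∃ k ∈ L, Re a k := by
  have hW : ∀ w : List ℕ, (∀ g ∈ w, g < 9) → evalWord z w ∈ L := by
    intro w hw
    induction w with
    | nil => exact L.one_mem
    | cons g w ih =>
      rw [evalWord_cons]
      exact L.mul_mem (hL g (hw g (by simp))) (ih (fun a ha => hw a (by simp [ha])))
  intro a ha
  induction ha using Subgroup.closure_induction with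
  | mem a h =>
    obtain ⟨w, hw, rfl⟩ := h
    exact ⟨_, hW w (hlet w hw), Re_word w (hlet w hw)⟩
  | one =>
    refine ⟨1, L.one_mem, fun n => ?_⟩
    rw [map_one]
    rfl
  | mul a b _ _ ha hb =>
    obtain ⟨k₁, hk₁, h₁⟩ := ha
    obtain ⟨k₂, hk₂, h₂⟩ := hb
    refine ⟨k₁ * k₂, L.mul_mem hk₁ hk₂, fun n => ?_⟩
    rw [map_mul, Equiv.Perm.mul_apply, Equiv.Perm.mul_apply, h₂, h₁]
  | inv a _ ha =>
    obtain ⟨k, hk, h⟩ := ha
    refine ⟨k⁻¹, L.inv_mem hk, fun n => ?_⟩
    rw [map_inv, Equiv.Perm.inv_eq_iff_eq, h]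
    simp

theorem card_le (L : Subgroup PS) (hL : ∀ g, g < 9 → z g ∈ L) [Finite PS] : 9196830720 ≤ Nat.card L := by
  classical
  have h := L0
  rw [List.drop_zero] at h
  refine h.trans ?_
  choose f hf hf' using fun a : tb.gp SW => exists_Re L hL a.1 a.2
  refine Nat.card_le_card_of_injective (fun a => (⟨f a, hf a⟩ : L)) ?_
  intro a b hab
  have h0 : f a = f b := congrArg Subtype.val hab
  apply Subtype.ext
  apply Equiv.ext
  intro n
  have h1 := hf' a n
  rw [h0, hf' b n] at h1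
  apply Fin.ext
  exact (τ_inj (b.1 n).2 (a.1 n).2 h1).symm

/-! ### No subgroup of index two -/

/-- The generators as elements of the subgroup. -/
noncomputable def yj (j : ℕ) : E :=
  if h : j < 9 then ⟨(x j)⁻¹, E.inv_mem (Subgroup.subset_closure ⟨j, h, rfl⟩)⟩ else 1

theorem yj_coe {j : ℕ} (h : j < 9) : ((yj j : E) : PresentedGroup S.rels) = evalWord S.v (Wo j) := by
  simp [yj, h, x]

theorem evalWord_append' {G : Type*} [Group G] (v : ℕ → G) (u w : List ℕ) :
    evalWord v (u ++ w) = evalWord v u * evalWord v w := by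
  induction u with
  | nil => simp
  | cons g u ih => rw [List.cons_append, evalWord_cons, evalWord_cons, ih, mul_assoc]

theorem coe_evalE (w : List ℕ) (hw : ∀ g ∈ w, g < 9) :
    ((evalWord yj w : E) : PresentedGroup S.rels) = evalWord S.v (fl w) := by
  induction w with
  | nil => rfl
  | cons g w ih =>
    have h1 : fl (g :: w) = Wo g ++ fl w := by simp [fl]
    rw [evalWord_cons, h1, evalWord_append', Subgroup.coe_mul, yj_coe (hw g (by simp)),
      ih (fun a ha => hw a (by simp [ha]))]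

theorem fl_let {w : List ℕ} (hw : ∀ g ∈ w, g < 9) : ∀ g ∈ fl w, g < S.ng := by
  intro g hg
  obtain ⟨j, hj, h⟩ := List.mem_flatMap.1 hg
  exact hWlet j (hw j hj) g h

/-- A relation in the subgroup from the table. -/
theorem pow_of_chk (w : List ℕ) (hw : ∀ g ∈ w, g < 9) (m : ℕ)
    (h : allF (fun i => Nat.beq (iterN (walk C.T (fl w)) m i) i) 0 3510 = true) : (evalWord yj w) ^ m = 1 := by
  apply Subtype.ext
  rw [Subgroup.coe_pow, coe_evalE w hw, Subgroup.coe_one]
  refine D.pow_eq_one Cfsg.Agent.Lib.TC.Data.Fi22Main.faith.1 (fl_let hw) m ?_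
  intro i hi
  have h1 := allF_spec' _ _ h i hi
  rw [← iterN_eq]
  exact Nat.eq_of_beq_eq_true h1

theorem mem_of_odd {L : Subgroup E} (hL : L.index = 2) {y : E} {m : ℕ} (hm : m % 2 = 1) (h : y ^ m = 1) : y ∈ L := by
  by_contra hy
  have h1 := not_mem_pow_odd hL hy (m / 2)
  have h2 : 2 * (m / 2) + 1 = m := by omega
  rw [h2, h] at h1
  exact h1 L.one_mem

theorem step {L : Subgroup E} (hL : L.index = 2) (p : List ℕ) (j : ℕ) (hp : evalWord yj p ∈ L) (m : ℕ) (hm : m % 2 = 1)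
    (h : (evalWord yj (p ++ [j])) ^ m = 1) : yj j ∈ L := by
  have h1 := mem_of_odd hL hm h
  rw [evalWord_append', evalWord_cons, evalWord_nil, mul_one] at h1
  exact (Subgroup.mul_mem_cancel_left L hp).1 h1

theorem word_mem {L : Subgroup E} (w : List ℕ) (h : ∀ g ∈ w, yj g ∈ L) : evalWord yj w ∈ L := by
  induction w with
  | nil => exact L.one_mem
  | cons g w ih =>
    rw [evalWord_cons]
    exact L.mul_mem (h g (by simp)) (ih (fun a ha => h a (by simp [ha])))

theorem yj_gen : Subgroup.closure (yj '' {j | j < 9}) = (⊤ : Subgroup E) := by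
  rw [eq_top_iff]
  rintro ⟨g, hg⟩ -
  induction hg using Subgroup.closure_induction with
  | mem a h =>
    obtain ⟨j, hj, rfl⟩ := h
    have h1 : (⟨x j, Subgroup.subset_closure ⟨j, hj, rfl⟩⟩ : E) = (yj j)⁻¹ := by
      apply Subtype.ext
      show x j = ((yj j)⁻¹ : E).1
      rw [InvMemClass.coe_inv, yj_coe hj]
      rfl
    rw [h1]
    exact Subgroup.inv_mem _ (Subgroup.subset_closure ⟨j, hj, rfl⟩)
  | one => exact Subgroup.one_mem _
  | mul a b ha hb h1 h2 => exact Subgroup.mul_mem _ h1 h2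
  | inv a ha h1 => exact Subgroup.inv_mem _ h1

theorem hp9 : ∀ g ∈ pc, g < 9 := by decide +kernel

theorem hno (L : Subgroup E) (hL : L.index = 2) : False := by
  have hc := hmc
  have h0 : evalWord yj pc ∈ L := mem_of_odd hL hc.1 (pow_of_chk pc (by decide +kernel) mc chkO0)
  have h1 : yj 1 ∈ L := step hL pc 1 h0 nc hc.2.1 (pow_of_chk _ (by decide +kernel) nc chkO1)
  have hs : ∀ i j, yj i ∈ L → (allF (fun k => Nat.beq (iterN (walk C.T (fl [i, j])) 3 k) k) 0 3510 = true) →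
      (∀ g ∈ [i, j], g < 9) → yj j ∈ L := by
    intro i j hi h hl
    refine step hL [i] j ?_ 3 (by norm_num) (pow_of_chk _ hl 3 h)
    rw [evalWord_cons, evalWord_nil, mul_one]
    exact hi
  have h2 : yj 2 ∈ L := hs 1 2 h1 chkO2 (by decide)
  have h3 : yj 3 ∈ L := hs 2 3 h2 chkO3 (by decide)
  have h4 : yj 4 ∈ L := hs 3 4 h3 chkO4 (by decide)
  have h5 : yj 5 ∈ L := hs 4 5 h4 chkO5 (by decide)
  have h6 : yj 6 ∈ L := hs 2 6 h2 chkO6 (by decide)
  have h7 : yj 7 ∈ L := hs 6 7 h6 chkO7 (by decide)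
  have hlow : ∀ g, 1 ≤ g → g < 8 → yj g ∈ L := by
    intro g h1g h2g
    interval_cases g <;> assumption
  have hpt : ∀ g ∈ pt, 1 ≤ g ∧ g < 8 := by decide +kernel
  have h8 : yj 8 ∈ L := step hL pt 8 (word_mem pt (fun g hg => hlow g (hpt g hg).1 (hpt g hg).2)) U62Data.mt hc.2.2
    (pow_of_chk _ (by decide +kernel) U62Data.mt chkO8)
  have hlow' : ∀ g, 1 ≤ g → g < 9 → yj g ∈ L := by
    intro g h1g h2g
    by_cases h : g < 8
    · exact hlow g h1g h
    · have : g = 8 := by omega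
      rw [this]
      exact h8
  have hza : ∀ g ∈ za, 1 ≤ g ∧ g < 9 := by decide +kernel
  have hrep : ∀ g ∈ rep za ka, 1 ≤ g ∧ g < 9 := by decide +kernel
  have h9 : yj 0 ∈ L := step hL (rep za ka) 0 (word_mem _ (fun g hg => hlow' g (hrep g hg).1 (hrep g hg).2)) 1 (by norm_num)
    (pow_of_chk _ (by decide +kernel) 1 chkO9)
  have hall : ∀ g, g < 9 → yj g ∈ L := by
    intro g hg
    by_cases h : g = 0
    · rw [h]
      exact h9
    · exact hlow' g (by omega) hg
  have h10 : (⊤ : Subgroup E) ≤ L := by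
    rw [← yj_gen]
    apply (Subgroup.closure_le _).2
    rintro _ ⟨j, hj, rfl⟩
    exact hall j hj
  rw [top_le_iff] at h10
  rw [h10, Subgroup.index_top] at hL
  omega

theorem main : Cfsg.IsNonsplitDoubleCover E PS := by
  obtain ⟨ψ, hψ, _⟩ := exists_ψ
  have hfinE : Finite E := Nat.finite_of_card_ne_zero (by rw [card_E]; norm_num)
  have hfinP : Finite PS := Nat.finite_of_card_ne_zero (by rw [card_PS]; norm_num)
  have hc := card_le ψ.range (fun j hj => ⟨_, hψ j hj⟩)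
  have htop : ψ.range = ⊤ := Subgroup.eq_top_of_le_card _ (by rw [card_PS]; exact hc)
  have hs : Function.Surjective ψ := MonoidHom.range_eq_top.1 htop
  refine isNonsplitDoubleCover_of_hom ψ hs (by rw [card_E, card_PS]) (by rw [card_PS]; norm_num) ?_ hno
  apply center_eq_bot_of_simple
  rw [card_PS]
  norm_num

theorem result : ∃ (K' : Type) (_ : Field K') (_ : Fintype K'), Fintype.card K' = 4 ∧
    Cfsg.IsNonsplitDoubleCover H (Cfsg.PSU 6 K' 2) := by
  refine ⟨K, inferInstance, inferInstance, Cfsg.Agent.Lib.Classical.FF4.card_F4, ?_⟩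
  rw [hHE]
  exact main

end Cfsg.Agent.Lib.Iso.U62
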