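/-
The checks of the map from the subgroup of the Fischer group Fi₂₂ to the projective special unitary group of dimension six.
-/
import Cfsg.Agent.Lib.Iso.U62Data
import Cfsg.Agent.Lib.Mat.F4CF
import Cfsg.Agent.Lib.TC.Uniq
import Cfsg.Agent.Lib.TC.Data.Fi22a.Main

set_option autoImplicit false

namespace Cfsg.Agent.Lib.Iso.U62

open Cfsg.Agent.Lib.TC Cfsg.Agent.Lib.TC.Fast Cfsg.Agent.Lib.Mat Cfsg.Agent.Lib.Iso.U62Data

abbrev K := Cfsg.Agent.Lib.Classical.FF4.F4

noncomputable def F : CF K := cfF4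

noncomputable def B (j : ℕ) : ℕ := ML.getD j 0

/-- The transpose of a number. -/
noncomputable def trP (A : ℕ) : ℕ := pk F.q (fun idx => ent F 6 A (Nat.mod idx 6) (Nat.div idx 6)) 36 0

/-- The squares of the entries of a number. -/
noncomputable def conjP (A : ℕ) : ℕ := pk F.q (fun idx => F.mul (dig F.q idx A) (dig F.q idx A)) 36 0

theorem hB : ∀ j, j < 9 → mm F 6 (B j) (B j) = oneP F 6 ∧ mm F 6 (trP (B j)) (conjP (B j)) = oneP F 6 := by decide +kernel

/-- The representative of a line. -/
noncomputable def rp (n : ℕ) : ℕ := Nat.land (Nat.shiftRight rpP (Nat.mul 12 n)) 4095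

/-- The table of the generators on the lines. -/
noncomputable def tO (n g : ℕ) : ℕ := Nat.land (Nat.shiftRight tOP (Nat.mul 10 (Nat.add (Nat.mul 9 n) g))) 1023

/-- A scalar multiple. -/
noncomputable def scal (c p : ℕ) : ℕ := pk F.q (fun i => F.mul c (dig F.q i p)) 6 0

/-- Is `w` a multiple of `r`? -/
noncomputable def isMul (w r : ℕ) : Bool :=
  bf (Nat.beq w r) true (bf (Nat.beq w (scal 2 r)) true (Nat.beq w (scal 3 r)))

theorem chkL_ok : allF (fun n => allF (fun g =>
    bf (Nat.blt (tO n g) 693) (fb (mv F 6 (B g) (rp n)) (fun w => isMul w (rp (tO n g)))) false) 0 9) 0 693 = true := by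
  decide +kernel

noncomputable abbrev C := Cfsg.Agent.Lib.TC.Data.Fi22a.checked

noncomputable def Wo (j : ℕ) : List ℕ := WoL.getD j []

theorem chkT_ok : allF (fun n => allF (fun g => Nat.beq (walk C.T (Wo g) (Nat.add n 2817)) (Nat.add (tO n g) 2817)) 0 9) 0 693 = true := by
  decide +kernel

/-- All the multiples of the representatives. -/
noncomputable def gM (k : ℕ) : ℕ := scal (Nat.add (Nat.mod k 3) 1) (rp (Nat.div k 3))

theorem chkU_ok : uniqF gM 2079 0 = true := by decide +kernel

noncomputable def Bn (j : ℕ) : ℕ := BL.getD j 0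

noncomputable def vv (n : ℕ) : Fin 6 → K := toV F 6 (rp n)

theorem hPcol : ∀ j : Fin 6, ∀ i : Fin 6, toM F 6 Pp i j = vv (Bn j) i := by decide +kernel

theorem hBlt : ∀ j, j < 6 → Bn j < 693 := by decide +kernel

theorem hQPm : mm F 6 Qp Pp = oneP F 6 := by decide +kernel

theorem hPa : mv F 6 Pp aN = rp uN := by decide +kernel

theorem ha0 : ∀ i : Fin 6, toV F 6 aN i ≠ 0 := by decide +kernel

theorem huN : uN < 693 := by decide +kernel

theorem sq_one : ∀ d : K, d * d = 1 → d = 1 := by decide +kernel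

theorem pow6 : ∀ c : K, c ≠ 0 → c ^ 3 = 1 := by decide +kernel

/-- The word of a list of generators. -/
noncomputable def fl (w : List ℕ) : List ℕ := w.flatMap Wo

/-- A repetition. -/
noncomputable def rep (w : List ℕ) : ℕ → List ℕ
  | 0 => []
  | k + 1 => w ++ rep w k

theorem chkO0 : allF (fun i => Nat.beq (iterN (walk C.T (fl pc)) mc i) i) 0 3510 = true := by decide +kernel

theorem chkO1 : allF (fun i => Nat.beq (iterN (walk C.T (fl (pc ++ [1]))) nc i) i) 0 3510 = true := by decide +kernel

theorem chkO2 : allF (fun i => Nat.beq (iterN (walk C.T (fl [1, 2])) 3 i) i) 0 3510 = true := by decide +kernel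

theorem chkO3 : allF (fun i => Nat.beq (iterN (walk C.T (fl [2, 3])) 3 i) i) 0 3510 = true := by decide +kernel

theorem chkO4 : allF (fun i => Nat.beq (iterN (walk C.T (fl [3, 4])) 3 i) i) 0 3510 = true := by decide +kernel

theorem chkO5 : allF (fun i => Nat.beq (iterN (walk C.T (fl [4, 5])) 3 i) i) 0 3510 = true := by decide +kernel

theorem chkO6 : allF (fun i => Nat.beq (iterN (walk C.T (fl [2, 6])) 3 i) i) 0 3510 = true := by decide +kernel

theorem chkO7 : allF (fun i => Nat.beq (iterN (walk C.T (fl [6, 7])) 3 i) i) 0 3510 = true := by decide +kernel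

theorem chkO8 : allF (fun i => Nat.beq (iterN (walk C.T (fl (pt ++ [8]))) U62Data.mt i) i) 0 3510 = true := by decide +kernel

theorem chkO9 : allF (fun i => Nat.beq (iterN (walk C.T (fl (rep za ka ++ [0]))) 1 i) i) 0 3510 = true := by decide +kernel

theorem hmc : mc % 2 = 1 ∧ nc % 2 = 1 ∧ U62Data.mt % 2 = 1 := by decide +kernel

end Cfsg.Agent.Lib.Iso.U62
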